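import Mathlib
import Cfsg.Agent.H92.Camina
import Cfsg.Agent.H92.Ito
import Cfsg.Agent.H4.CoprimeExt
import Cfsg.Agent.H1.Nilp

/-! Tools for groups whose noncentral class sizes all have the same `s`-part. -/

set_option autoImplicit false
set_option linter.unusedSectionVars false
set_option linter.style.haveILetI false

namespace Cfsg.Agent.H1.Cs

open scoped Pointwise commutatorElement
open Cfsg.Agent.H92

variable {G : Type*} [Group G] [Finite G]

/-- a Sylow subgroup of a subgroup, as a subgroup of `G` -/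
theorem exists_syl (s : ℕ) [Fact s.Prime] (D : Subgroup G) :
    ∃ R : Subgroup G, R ≤ D ∧ IsPGroup s R ∧ ¬ s ∣ R.relIndex D := by
  obtain ⟨P⟩ : Nonempty (Sylow s D) := inferInstance
  refine ⟨(P : Subgroup D).map D.subtype, Subgroup.map_subtype_le _, P.isPGroup'.map _, ?_⟩
  have : ((P : Subgroup D).map D.subtype).relIndex D = (P : Subgroup D).index := by
    unfold Subgroup.relIndex
    rw [Subgroup.subgroupOf, Subgroup.comap_map_eq_self_of_injective D.subtype_injective]
  rw [this]; exact P.not_dvd_index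

theorem dvd_relIndex_of_normalizer {s : ℕ} (hs : s.Prime) {D H : Subgroup G} (hDH : D ≤ H) {a : G}
    (ha : ∃ k, orderOf a = s ^ k) (haH : a ∈ H) (haN : a ∈ Subgroup.normalizer (D : Set G))
    (haD : a ∉ D) : s ∣ D.relIndex H := by
  set N := H ⊓ Subgroup.normalizer (D : Set G) with hN
  have hDN : D ≤ N := le_inf hDH Subgroup.le_normalizer
  have hn : (D.subgroupOf N).Normal :=
    (Subgroup.normal_subgroupOf_iff_le_normalizer hDN).2 inf_le_right
  have h1 : s ∣ D.relIndex N :=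
    dvd_index_of_not_mem hs (D.subgroupOf N) (x := ⟨a, haH, haN⟩)
      (by rwa [← Subgroup.orderOf_coe]) haD
  exact h1.trans (Dvd.intro _ (Subgroup.relIndex_mul_relIndex D N H hDN inf_le_left))

/-- If `s` divides the index of `H` and `U` is a Sylow subgroup of `H`, some `s`-group `T`
normalizing `U` is not contained in `H`. -/
theorem exists_grow {s : ℕ} [hs : Fact s.Prime] {H U : Subgroup G} (hH : s ∣ H.index)
    (hUH : U ≤ H) (hU : IsPGroup s U) (hUs : ¬ s ∣ U.relIndex H) :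
    ∃ T : Subgroup G, IsPGroup s T ∧ T ≤ Subgroup.normalizer (U : Set G) ∧ ∃ t ∈ T, t ∉ H := by
  obtain ⟨S, hS⟩ := hU.exists_le_sylow
  refine ⟨S ⊓ Subgroup.normalizer (U : Set G), S.isPGroup'.to_inf_left, inf_le_right, ?_⟩
  have hne : U.subgroupOf S < ⊤ := by
    rw [lt_top_iff_ne_top]
    intro h
    have : (S : Subgroup G) ≤ H := (Subgroup.subgroupOf_eq_top.1 h).trans hUH
    exact not_dvd_index_of_sylow_le S this hH
  have hnil : Group.IsNilpotent S := S.isPGroup'.isNilpotent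
  have hlt := Group.normalizerCondition_of_isNilpotent (G := S) _ hne
  obtain ⟨t, ht1, ht2⟩ := SetLike.exists_of_lt hlt
  have htN : (t : G) ∈ Subgroup.normalizer (U : Set G) := by
    rw [← Subgroup.subgroupOf_normalizer_eq hS] at ht1
    exact ht1
  refine ⟨t, ⟨t.2, htN⟩, fun htH => hUs ?_⟩
  exact dvd_relIndex_of_normalizer hs.out hUH (orderOf_eq_pow_of_mem S.isPGroup' t.2) htH htN ht2

/-- second centre elements -/
theorem exists_z2 {s : ℕ} [hs : Fact s.Prime] {U T : Subgroup G} (hU : IsPGroup s U)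
    (hT : IsPGroup s T) (hN : T ≤ Subgroup.normalizer (U : Set G))
    (hZ : ¬ U ≤ Subgroup.center G) :
    ∃ u ∈ U, u ∉ Subgroup.center G ∧ (∀ g ∈ T, ⁅u, g⁆ ∈ Subgroup.center G) ∧
      u ^ s ∈ Subgroup.center G := by
  set f := QuotientGroup.mk' (Subgroup.center G) with hf
  have hN' : T.map f ≤ Subgroup.normalizer (U.map f : Set _) :=
    (Subgroup.map_mono hN).trans (Subgroup.le_normalizer_map f)
  have hne : U.map f ≠ ⊥ := by
    intro h
    apply hZ
    rw [Subgroup.map_eq_bot_iff, hf, QuotientGroup.ker_mk'] at h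
    exact h
  have h1 := inf_centralizer_ne_bot_of_isPGroup (hU.map f) (hT.map f) hN' hne
  have hP : IsPGroup s (U.map f ⊓ Subgroup.centralizer (T.map f : Set _) : Subgroup _) :=
    (hU.map f).to_inf_left
  have hdvd : s ∣ Nat.card (U.map f ⊓ Subgroup.centralizer (T.map f : Set _) : Subgroup _) := by
    obtain ⟨k, hk⟩ := hP.exists_card_eq
    rcases k with _ | k
    · exact absurd (Subgroup.eq_bot_of_card_eq _ (by simpa using hk)) h1
    · rw [hk]; exact dvd_pow_self s k.succ_ne_zero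
  obtain ⟨⟨y, hy0⟩, hy⟩ := exists_prime_orderOf_dvd_card' s hdvd
  rw [Subgroup.orderOf_mk] at hy
  obtain ⟨hy1, hy2⟩ := Subgroup.mem_inf.1 hy0
  obtain ⟨u, hu, rfl⟩ := hy1
  refine ⟨u, hu, fun hz => ?_, fun g hg => ?_, ?_⟩
  · have : f u = 1 := (QuotientGroup.eq_one_iff u).2 hz
    rw [this, orderOf_one] at hy
    exact hs.out.one_lt.ne hy
  · rw [commutator_mem_center_iff]
    exact (Subgroup.mem_centralizer_iff.1 hy2 (f g) ⟨g, hg, rfl⟩).symm
  · rw [← QuotientGroup.eq_one_iff]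
    have : (f u) ^ s = 1 := by rw [← hy]; exact pow_orderOf_eq_one _
    simpa [hf] using this

omit [Finite G] in
theorem mem_normalizer_C_of_commutator {u g : G} (h : ⁅u, g⁆ ∈ Subgroup.center G) [Finite G] :
    g ∈ Subgroup.normalizer ((Ce[u] : Subgroup G) : Set G) := by
  have h' : ⁅g, u⁆ ∈ Subgroup.center G := by
    rw [← commutatorElement_inv]; exact Subgroup.inv_mem _ h
  have h1 : g * u * g⁻¹ = ⁅g, u⁆ * u := by rw [commutatorElement_def]; group
  have h2 : MulAut.conj g • Ce[u] = Ce[u] := by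
    rw [← C_conj, h1, C_mul_of_mem_center' h']
  rw [Subgroup.mem_normalizer_iff]
  intro y
  conv_rhs => rw [← h2]
  rw [mem_conj_smul]
  simp [mul_assoc]

/-- the commutator trick -/
theorem exists_commute_of_fpf {s t : ℕ} (hs : s.Prime) (ht : t.Prime) (hst : s ≠ t)
    {V : Subgroup G} (hV : IsPGroup t V) (hVZ : ¬ V ≤ Subgroup.center G) {g w : G}
    (hg : ∃ k, orderOf g = s ^ k) (hw : ∃ k, orderOf w = t ^ k)
    (hgN : g ∈ Subgroup.normalizer (V : Set G)) (hwN : w ∈ Subgroup.normalizer (V : Set G))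
    (hgw : Commute g w) (hfpf : ∀ v ∈ V, Commute v g → v ∈ Subgroup.center G) :
    ∃ v ∈ V, v ∉ Subgroup.center G ∧ Commute v w := by
  haveI := Fact.mk ht
  obtain ⟨v, hv, hvZ, hc, -⟩ := exists_z2 hV ((isPGroup_zpowers_iff w).2 hw)
    (Subgroup.zpowers_le.2 hwN) hVZ
  have hz := hc w (Subgroup.mem_zpowers w)
  refine ⟨⁅v⁻¹, g⁆, ?_, fun h => hvZ ?_, ?_⟩
  · rw [commutatorElement_def, inv_inv, mul_assoc, mul_assoc, ← mul_assoc g]
    exact V.mul_mem (V.inv_mem hv) ((Subgroup.mem_normalizer_iff.1 hgN v).1 hv)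
  · have := commute_of_coprime_of_commutator_mem_center h (by
      rw [orderOf_inv]
      exact coprime_of_pow_of_pow ht hs hst.symm (orderOf_eq_pow_of_mem hV hv) hg)
    exact hfpf v hv (by simpa using this.inv_left)
  · set z := ⁅v, w⁆ with hzdef
    have hzc : ∀ y, y * z = z * y := Subgroup.mem_center_iff.1 hz
    have e1 : v * w * v⁻¹ = z * w := by rw [hzdef, commutatorElement_def]; group
    have e2 : g⁻¹ * w * g = w := by rw [mul_assoc, ← hgw.eq]; group
    have e3 : g * w * g⁻¹ = w := by rw [hgw.eq]; group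
    have e4 : v⁻¹ * (z * w) * v = w := by rw [← e1]; group
    show ⁅v⁻¹, g⁆ * w = w * ⁅v⁻¹, g⁆
    have : ⁅v⁻¹, g⁆ * w * ⁅v⁻¹, g⁆⁻¹ = w := by
      calc ⁅v⁻¹, g⁆ * w * ⁅v⁻¹, g⁆⁻¹
          = v⁻¹ * (g * (v * (g⁻¹ * w * g) * v⁻¹) * g⁻¹) * v := by
            rw [commutatorElement_def]; group
        _ = v⁻¹ * (g * (z * w) * g⁻¹) * v := by rw [e2, e1]
        _ = v⁻¹ * (z * (g * w * g⁻¹)) * v := by rw [← mul_assoc g, hzc g]; group
        _ = w := by rw [e3, e4]
    exact mul_inv_eq_iff_eq_mul.1 this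

/-! ### `s`-parts of indices -/

theorem full_of_le {s v : ℕ} {D E : Subgroup G} (h : D ≤ E) (hD : ¬ s ^ (v + 1) ∣ D.index) :
    ¬ s ^ (v + 1) ∣ E.index := fun hE => hD (hE.trans (Subgroup.index_dvd_of_le h))

theorem full_of_relIndex {s v : ℕ} (hs : s.Prime) {D H : Subgroup G} (h : D ≤ H)
    (hr : ¬ s ∣ D.relIndex H) (hH : ¬ s ^ (v + 1) ∣ H.index) : ¬ s ^ (v + 1) ∣ D.index := by
  intro hD
  rw [← Subgroup.relIndex_mul_index h] at hD
  exact hH ((Nat.Coprime.pow_left _ ((Nat.Prime.coprime_iff_not_dvd hs).2 hr)).dvd_of_dvd_mul_left hD)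

theorem not_dvd_relIndex_of_full {s v : ℕ} {D H : Subgroup G} (h : D ≤ H)
    (hD : ¬ s ^ (v + 1) ∣ D.index) (hH : s ^ v ∣ H.index) : ¬ s ∣ D.relIndex H := by
  intro hr
  apply hD
  rw [← Subgroup.relIndex_mul_index h, pow_succ']
  exact Nat.mul_dvd_mul hr hH

theorem absorb {s v : ℕ} (hs : s.Prime) {D H : Subgroup G} (h : D ≤ H)
    (hD : ¬ s ^ (v + 1) ∣ D.index) (hH : s ^ v ∣ H.index) {a : G} (ha : ∃ k, orderOf a = s ^ k)
    (haH : a ∈ H) (haN : a ∈ Subgroup.normalizer (D : Set G)) : a ∈ D := by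
  by_contra haD
  exact not_dvd_relIndex_of_full h hD hH (dvd_relIndex_of_normalizer hs h ha haH haN haD)

theorem relIndex_center_mul (g : G) :
    (Subgroup.center G).relIndex (Ce[g]) * cs[g] = (Subgroup.center G).index :=
  Subgroup.relIndex_mul_index (center_le_C g)

theorem relIndex_center_eq {a b : G} (h : cs[a] = cs[b]) :
    (Subgroup.center G).relIndex (Ce[a]) = (Subgroup.center G).relIndex (Ce[b]) := by
  have h1 := relIndex_center_mul a
  have h2 := relIndex_center_mul b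
  rw [h, ← h2] at h1
  exact Nat.eq_of_mul_eq_mul_right (cs_pos b) h1

theorem exists_noncentral_of_cs_eq {a b x : G} (h : cs[a] = cs[b]) {p : ℕ} (hp : p.Prime)
    (hx : ∃ k, orderOf x = p ^ k) (hxa : x ∈ Ce[a]) (hxZ : x ∉ Subgroup.center G) :
    ∃ y ∈ Ce[b], (∃ k, orderOf y = p ^ k) ∧ y ∉ Subgroup.center G := by
  apply exists_not_mem_of_dvd_relIndex hp
  rw [← relIndex_center_eq h]
  exact dvd_relIndex_of_not_mem hp _ _ hx hxa hxZ

theorem exists_noncentral_of_dvd_cs {p : ℕ} (hp : p.Prime) {g : G} (h : p ∣ cs[g]) :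
    ∃ y : G, (∃ k, orderOf y = p ^ k) ∧ y ∉ Subgroup.center G :=
  exists_not_mem_of_dvd_index hp (h.trans (Subgroup.index_dvd_of_le (center_le_C g)))

/-- all noncentral class sizes have `s`-part `s ^ v` -/
def SamePart (G : Type*) [Group G] (s v : ℕ) : Prop :=
  ∀ g : G, g ∉ Subgroup.center G → s ^ v ∣ cs[g] ∧ ¬ s ^ (v + 1) ∣ cs[g]

namespace SamePart

variable {s v : ℕ}

theorem exists_noncentral (h : SamePart G s v) (hs : s.Prime) (hv : v ≠ 0) {g : G}
    (hg : g ∉ Subgroup.center G) :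
    ∃ y ∈ Ce[g], (∃ k, orderOf y = s ^ k) ∧ y ∉ Subgroup.center G := by
  obtain ⟨u, hu, huZ⟩ := exists_noncentral_of_dvd_cs hs ((dvd_pow_self s hv).trans (h g hg).1)
  have h1 : s ∣ (Subgroup.center G).relIndex (Ce[u]) :=
    dvd_relIndex_of_not_mem hs _ _ hu (self_mem_C u) huZ
  have h2 : s ^ (v + 1) ∣ (Subgroup.center G).index := by
    rw [← relIndex_center_mul u, pow_succ']
    exact Nat.mul_dvd_mul h1 (h u huZ).1
  apply exists_not_mem_of_dvd_relIndex hs
  by_contra h3
  exact full_of_relIndex hs (center_le_C g) h3 (h g hg).2 h2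

theorem not_mem_center_mul {x y : G} (hx : x ∉ Subgroup.center G) (hc : Commute x y)
    (hcop : (orderOf x).Coprime (orderOf y)) : x * y ∉ Subgroup.center G := fun h =>
  hx ((Subgroup.zpowers_le.2 h) (mem_zpowers_mul_of_coprime hc hcop))

theorem not_dvd_relIndex (h : SamePart G s v) {u y : G}
    (huZ : u ∉ Subgroup.center G) (hy : y ∈ Ce[u]) (hcop : (orderOf u).Coprime (orderOf y)) :
    ¬ s ∣ (Ce[y]).relIndex (Ce[u]) := by
  have hc : Commute u y := mem_C'.1 hy
  have h1 := (h _ (not_mem_center_mul huZ hc hcop)).2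
  rw [C_mul_of_coprime hc hcop] at h1
  have := not_dvd_relIndex_of_full inf_le_left h1 (h u huZ).1
  rwa [Subgroup.inf_relIndex_left] at this

/-- splitting of centralizers of noncentral `s`-elements -/
theorem split (h : SamePart G s v) (hs : s.Prime) {u : G} (hu : ∃ k, orderOf u = s ^ k)
    (huZ : u ∉ Subgroup.center G) :
    ∃ K : Subgroup G, K ≤ Ce[u] ∧ ¬ s ∣ Nat.card K ∧ (∃ k, K.relIndex (Ce[u]) = s ^ k) ∧
      (∀ y ∈ Ce[u], ¬ s ∣ orderOf y → y ∈ K) ∧
      ∀ a ∈ Ce[u], (∃ k, orderOf a = s ^ k) → a ∈ Subgroup.centralizer (K : Set G) := by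
  haveI := Fact.mk hs
  exact exists_direct_of_not_dvd_relIndex _ fun y hy hy' =>
    h.not_dvd_relIndex huZ hy (coprime_of_pow_of_not_dvd hs hu hy')

theorem commute (h : SamePart G s v) (hs : s.Prime) {u : G} (hu : ∃ k, orderOf u = s ^ k)
    (huZ : u ∉ Subgroup.center G) {a y : G} (ha : a ∈ Ce[u]) (ha' : ∃ k, orderOf a = s ^ k)
    (hy : y ∈ Ce[u]) (hy' : ¬ s ∣ orderOf y) : Commute a y := by
  obtain ⟨K, -, -, -, h1, h2⟩ := h.split hs hu huZ
  exact (Subgroup.mem_centralizer_iff.1 (h2 a ha ha') y (h1 y hy hy')).symm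

/-- If a second-centre element of a Sylow `s`-subgroup centralizes a noncentral `s'`-element
then `v ≤ 1`. -/
theorem le_one (h : SamePart G s v) [hs : Fact s.Prime] (S : Sylow s G) {u : G}
    (huS : u ∈ (S : Subgroup G)) (huZ : u ∉ Subgroup.center G)
    (hc : ∀ g ∈ (S : Subgroup G), ⁅u, g⁆ ∈ Subgroup.center G) (hpow : u ^ s ∈ Subgroup.center G)
    {l : G} (hl : l ∈ Ce[u]) (hl' : ¬ s ∣ orderOf l) (hlZ : l ∉ Subgroup.center G) : v ≤ 1 := by
  have hu := orderOf_eq_pow_of_mem S.isPGroup' huS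
  obtain ⟨L, hLC, hLs, -, hLm, hLc⟩ := h.split hs.out hu huZ
  have hSN : ∀ g ∈ (S : Subgroup G), g ∈ Subgroup.normalizer ((Ce[u] : Subgroup G) : Set G) :=
    fun g hg => mem_normalizer_C_of_commutator (hc g hg)
  have hLord : ∀ y ∈ L, ¬ s ∣ orderOf y := fun y hy hd =>
    hLs (hd.trans (Subgroup.orderOf_dvd_natCard L hy))
  have hSL : (S : Subgroup G) ≤ Subgroup.normalizer (L : Set G) := by
    rw [Subgroup.le_normalizer_iff]
    intro g hg y hy
    exact hLm _ ((Subgroup.mem_normalizer_iff.1 (hSN g hg) y).1 (hLC hy))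
      (by rw [orderOf_conj]; exact hLord y hy)
  -- `D`
  obtain ⟨R, hRC, hRp, hRs⟩ := exists_syl s (Ce[u])
  set D := Subgroup.centralizer (L : Set G) ⊓ Ce[u] with hD
  have hRD : R ≤ D := fun a ha => ⟨hLc a (hRC ha) (orderOf_eq_pow_of_mem hRp ha), hRC ha⟩
  have hDfull : ¬ s ^ (v + 1) ∣ D.index :=
    full_of_le hRD (full_of_relIndex hs.out hRC hRs (h u huZ).2)
  have key : ∀ g ∈ (S : Subgroup G), ∀ w ∈ L, w ∉ Subgroup.center G → Commute g w → g ∈ D := by
    intro g hg w hw hwZ hgw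
    refine absorb hs.out (H := Ce[w]) (fun a ha => ?_) hDfull (h w hwZ).1
      (orderOf_eq_pow_of_mem S.isPGroup' hg) (mem_C.2 hgw) ?_
    · exact mem_C'.2 (Subgroup.mem_centralizer_iff.1 ha.1 w hw)
    · exact Subgroup.inf_normalizer_le_normalizer_inf (Subgroup.mem_inf.2
        ⟨normalizer_le_normalizer_centralizer L (hSL hg), hSN g hg⟩)
  set ψ : S →* MulAut L := L.normalizerMonoidHom.comp (Subgroup.inclusion hSL) with hψ
  have hψa : ∀ (g : S) (w : L), ((ψ g w : L) : G) = g * w * (g : G)⁻¹ := fun g w => rfl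
  have hker : ∀ g : S, (g : G) ∈ Ce[u] → ψ g = 1 := by
    intro g hg
    ext w
    rw [hψa]
    have := Subgroup.mem_centralizer_iff.1 (hLc g hg (orderOf_eq_pow_of_mem S.isPGroup' g.2)) w w.2
    simp [← this]
  have hcomm : ∀ a b : S, ψ a * ψ b = ψ b * ψ a := by
    intro a b
    rw [← commutatorElement_eq_one_iff_mul_comm, ← map_commutatorElement]
    apply hker
    have ha := hc a a.2
    have hb := hc b b.2
    rw [mem_C']
    have ea : (a : G)⁻¹ * u * a = u * ⁅u, (a : G)⁆ := by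
      have := Subgroup.mem_center_iff.1 ha
      have e : u * a = ⁅u, (a : G)⁆ * a * u := by rw [commutatorElement_def]; group
      rw [mul_assoc, e, ← this a, this u]; group
    have eb : (b : G)⁻¹ * u * b = u * ⁅u, (b : G)⁆ := by
      have := Subgroup.mem_center_iff.1 hb
      have e : u * b = ⁅u, (b : G)⁆ * b * u := by rw [commutatorElement_def]; group
      rw [mul_assoc, e, ← this b, this u]; group
    have hab : ((b : G) * a)⁻¹ * u * (b * a) = ((a : G) * b)⁻¹ * u * (a * b) := by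
      have ca := Subgroup.mem_center_iff.1 ha
      have cb := Subgroup.mem_center_iff.1 hb
      calc ((b : G) * a)⁻¹ * u * (b * a) = (a : G)⁻¹ * ((b : G)⁻¹ * u * b) * a := by group
        _ = (a : G)⁻¹ * u * (⁅u, (b : G)⁆ * a) := by rw [eb]; group
        _ = ((a : G)⁻¹ * u * a) * ⁅u, (b : G)⁆ := by rw [← cb a]; group
        _ = u * (⁅u, (a : G)⁆ * ⁅u, (b : G)⁆) := by rw [ea]; group
        _ = ((b : G)⁻¹ * u * b) * ⁅u, (a : G)⁆ := by rw [eb, cb]; group
        _ = (b : G)⁻¹ * u * (⁅u, (a : G)⁆ * b) := by rw [← ca b]; group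
        _ = (b : G)⁻¹ * ((a : G)⁻¹ * u * a) * b := by rw [ea]; group
        _ = ((a : G) * b)⁻¹ * u * (a * b) := by group
    show u * ((⁅a, b⁆ : S) : G) = ((⁅a, b⁆ : S) : G) * u
    have e : ((⁅a, b⁆ : S) : G) = ((a : G) * b) * ((b : G) * a)⁻¹ := by
      rw [commutatorElement_def]; push_cast; group
    rw [e]
    calc u * ((a : G) * b * ((b : G) * a)⁻¹)
        = (a : G) * b * (((a : G) * b)⁻¹ * u * (a * b)) * ((b : G) * a)⁻¹ := by group
      _ = (a : G) * b * ((b : G) * a)⁻¹ * u := by rw [← hab]; group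
  have hexp : ∀ a : S, ψ a ^ s = 1 := by
    intro a
    rw [← map_pow]
    apply hker
    rw [mem_C', ← commutatorElement_eq_one_iff_commute]
    have ha := hc a a.2
    have ha' : ⁅(a : G), u⁆ ∈ Subgroup.center G := by
      rw [← commutatorElement_inv]; exact Subgroup.inv_mem _ ha
    have h1 : ⁅(a : G), u⁆ ^ s = 1 := by
      rw [← commutatorElement_pow_right_of_central ha', commutatorElement_eq_one_iff_commute]
      exact (Subgroup.mem_center_iff.1 hpow a)
    rw [Subgroup.coe_pow, commutatorElement_pow_right_of_central ha, ← commutatorElement_inv,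
      inv_pow, h1, inv_one]
  haveI : IsMulCommutative ψ.range := ⟨⟨by
    rintro ⟨_, a, rfl⟩ ⟨_, b, rfl⟩
    exact Subtype.ext (hcomm a b)⟩⟩
  have hAp : IsPGroup s ψ.range := S.isPGroup'.of_surjective _ ψ.rangeRestrict_surjective
  have hcyc : IsCyclic ψ.range := by
    by_contra hn
    have := H4.Ext.le_of_fixed_le ψ.range.subtype hn (H := ⊤)
      (M := (Subgroup.center G).subgroupOf L) (fun _ _ _ => Subgroup.mem_top _) (by
        rw [Subgroup.card_top]
        exact coprime_of_pow_of_not_dvd hs.out hAp.exists_card_eq hLs) (by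
        rintro ⟨_, a, rfl⟩ ha w - hw
        by_contra hwZ
        apply ha
        have h1 : (a : G) * w * (a : G)⁻¹ = w := by rw [← hψa]; exact congrArg Subtype.val hw
        have h2 := key a a.2 w w.2 hwZ (mul_inv_eq_iff_eq_mul.1 h1)
        exact Subtype.ext (hker a h2.2))
    exact hlZ (this (Subgroup.mem_top (⟨l, hLm l hl hl'⟩ : L)))
  have hcard : Nat.card ψ.range ∣ s := by
    rw [← hcyc.exponent_eq_card]
    apply Monoid.exponent_dvd_of_forall_pow_eq_one
    rintro ⟨_, a, rfl⟩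
    exact Subtype.ext (hexp a)
  have hkerle : ψ.ker.map (S : Subgroup G).subtype ≤ Ce[u] := by
    rintro _ ⟨a, ha, rfl⟩
    have h1 : (a : G) * l * (a : G)⁻¹ = l := by
      have := hψa a ⟨l, hLm l hl hl'⟩
      rw [(MonoidHom.mem_ker).1 ha] at this
      exact this.symm
    exact (key a a.2 l (hLm l hl hl') hlZ (mul_inv_eq_iff_eq_mul.1 h1)).2
  have hidx : cs[u] ∣ s * (S : Subgroup G).index := by
    refine (Subgroup.index_dvd_of_le hkerle).trans ?_
    rw [Subgroup.index_map_subtype, Subgroup.index_ker]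
    exact Nat.mul_dvd_mul_right hcard _
  by_contra hv
  have h2 : s ^ 2 ∣ s * (S : Subgroup G).index :=
    ((pow_dvd_pow s (by omega)).trans (h u huZ).1).trans hidx
  rw [pow_two] at h2
  exact S.not_dvd_index (Nat.dvd_of_mul_dvd_mul_left hs.out.pos h2)

/-- If the centralizer of every noncentral `s`-element contains a noncentral `s'`-element
then `v ≤ 1`. -/
theorem le_one' (h : SamePart G s v) (hs : s.Prime) (hv : v ≠ 0) {g : G}
    (hg : g ∉ Subgroup.center G)
    (hl : ∀ u : G, (∃ k, orderOf u = s ^ k) → u ∉ Subgroup.center G →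
      ∃ l ∈ Ce[u], ¬ s ∣ orderOf l ∧ l ∉ Subgroup.center G) : v = 1 := by
  haveI := Fact.mk hs
  obtain ⟨y, -, hy, hyZ⟩ := h.exists_noncentral hs hv hg
  obtain ⟨S, hS⟩ := exists_sylow_mem hy
  obtain ⟨u, huS, huZ, hc, hpow⟩ := exists_z2 S.isPGroup' S.isPGroup' Subgroup.le_normalizer
    (fun hle => hyZ (hle hS))
  obtain ⟨l, hl1, hl2, hl3⟩ := hl u (orderOf_eq_pow_of_mem S.isPGroup' huS) huZ
  have := h.le_one S huS huZ hc hpow hl1 hl2 hl3
  omega

end SamePart

end Cfsg.Agent.H1.Cs
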