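import Mathlib
import Cfsg.Agent.H42.Kern

set_option autoImplicit false
set_option maxRecDepth 100000

namespace Cfsg.Agent.H1.Md

open Cfsg.Agent.H42

section lin
variable {V : Type*} [AddCommGroup V]

/-- The sum of the `f i` over the bits `i < k` set in `m`. -/
def mdL (f : ℕ → V) (m k : ℕ) : V := ∑ i ∈ Finset.range k, if m.testBit i = true then f i else 0

theorem mdL_zero (f : ℕ → V) (m : ℕ) : mdL f m 0 = 0 := by simp [mdL]

theorem mdL_succ (f : ℕ → V) (m k : ℕ) :
    mdL f m (k + 1) = mdL f m k + if m.testBit k = true then f k else 0 := by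
  simp [mdL, Finset.sum_range_succ]

theorem mdL_mask_zero (f : ℕ → V) (k : ℕ) : mdL f 0 k = 0 := by simp [mdL]

theorem mdL_xor (h2 : ∀ v : V, v + v = 0) (f : ℕ → V) (a b k : ℕ) :
    mdL f (a ^^^ b) k = mdL f a k + mdL f b k := by
  unfold mdL
  rw [← Finset.sum_add_distrib]
  refine Finset.sum_congr rfl fun i _ => ?_
  rw [Nat.testBit_xor]
  cases a.testBit i <;> cases b.testBit i <;> simp [h2]

theorem mdL_congr {f f' : ℕ → V} (m k : ℕ) (h : ∀ i < k, f i = f' i) : mdL f m k = mdL f' m k := by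
  unfold mdL
  refine Finset.sum_congr rfl fun i hi => ?_
  rw [h i (Finset.mem_range.mp hi)]

theorem mdL_fun_zero {f : ℕ → V} (m k : ℕ) (h : ∀ i < k, f i = 0) : mdL f m k = 0 := by
  unfold mdL
  refine Finset.sum_eq_zero fun i hi => ?_
  rw [h i (Finset.mem_range.mp hi)]; simp

theorem mdL_two_pow (f : ℕ → V) {j k : ℕ} (h : j < k) : mdL f (2 ^ j) k = f j := by
  unfold mdL
  rw [Finset.sum_eq_single j]
  · simp
  · intro i _ hij
    rw [Nat.testBit_two_pow_of_ne (Ne.symm hij)]; simp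
  · intro hj; exact absurd (Finset.mem_range.mpr h) hj

/-- An xor-additive map turns `xorC` into `mdL`. -/
theorem map_xorC (E : ℕ → V) (h0 : E 0 = 0) (hx : ∀ a b, E (a ^^^ b) = E a + E b)
    (T : ℕ → ℕ) (m n : ℕ) : E (xorC T m n) = mdL (fun i => E (T i)) m n := by
  induction n with
  | zero => rw [xorC_zero, h0, mdL_zero]
  | succ n ih =>
    rw [xorC_succ, mdL_succ]
    split_ifs
    · rw [hx, ih]
    · rw [ih, add_zero]

theorem mdL_xorC (h2 : ∀ v : V, v + v = 0) (f : ℕ → V) (k : ℕ) (T : ℕ → ℕ) (m n : ℕ) :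
    mdL f (xorC T m n) k = mdL (fun i => mdL f (T i) k) m n :=
  map_xorC (fun x => mdL f x k) (mdL_mask_zero f k) (fun a b => mdL_xor h2 f a b k) T m n

theorem smul_mdL {Γ : Type*} [Monoid Γ] [DistribMulAction Γ V] (g : Γ) (f : ℕ → V) (m k : ℕ) :
    g • mdL f m k = mdL (fun i => g • f i) m k := by
  unfold mdL
  rw [Finset.smul_sum]
  refine Finset.sum_congr rfl fun i _ => ?_
  split_ifs <;> simp

theorem xorC_lt {T : ℕ → ℕ} {n : ℕ} (m k : ℕ) (h : ∀ i < k, T i < 2 ^ n) : xorC T m k < 2 ^ n :=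
  xorC_induction (fun x => x < 2 ^ n) (Nat.two_pow_pos n) (fun _ _ ha hb => Nat.xor_lt_two_pow ha hb)
    T m k h

end lin

section count
variable {V : Type*} [AddCommGroup V] [Finite V] {Γ : Type*} [Monoid Γ] [DistribMulAction Γ V]

theorem card_fix_modEq (p : ℕ) [Fact p.Prime] (g : Γ) (hg : ∀ v : V, g ^ p • v = v)
    (W : AddSubgroup V) (hW : ∀ v ∈ W, g • v ∈ W) :
    Nat.card W ≡ Nat.card {v : W // g • (v : V) = v} [MOD p] := by
  classical
  have := Fintype.ofFinite W
  let f : Function.End W := fun v => ⟨g • (v : V), hW v v.2⟩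
  have hpow : ∀ (n : ℕ) (v : W), (((f ^ n) v : W) : V) = g ^ n • (v : V) := by
    intro n
    induction n with
    | zero => intro v; simp [Function.End.one_def]
    | succ n ih =>
      intro v
      rw [pow_succ', Function.End.mul_def, pow_succ', mul_smul, ← ih v]
      rfl
  have hf : f ^ p ^ 1 = 1 := by
    funext v
    apply Subtype.ext
    rw [pow_one, hpow, hg]
    rfl
  have h := Equiv.Perm.card_fixedPoints_modEq hf
  rw [← Nat.card_eq_fintype_card, ← Nat.card_eq_fintype_card] at h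
  have e : Nat.card f.fixedPoints = Nat.card {v : W // g • (v : V) = v} := by
    refine Nat.card_congr (Equiv.subtypeEquivRight fun v => ?_)
    exact ⟨fun h => congrArg Subtype.val h, fun h => Subtype.ext h⟩
  rw [← e]; exact h

theorem dvd_2048_mod {n : ℕ} (h : n ∣ 2048) (h1 : n % 23 = 1) : n = 1 ∨ n = 2048 := by
  have : (2048 : ℕ) = 2 ^ 11 := by norm_num
  rw [this, Nat.dvd_prime_pow Nat.prime_two] at h
  obtain ⟨k, hk, rfl⟩ := h
  interval_cases k <;> simp_all

/-- The fixed subgroup of an element. -/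
def fixSub (g : Γ) : AddSubgroup V where
  carrier := {v | g • v = v}
  zero_mem' := smul_zero g
  add_mem' := fun {x y} hx hy => by
    show g • (x + y) = x + y
    rw [smul_add, hx, hy]
  neg_mem' := fun {x} hx => by
    show g • (-x) = -x
    rw [smul_neg, hx]

theorem card_fix_top (g : Γ) :
    Nat.card {v : (⊤ : AddSubgroup V) // g • (v : V) = v} = Nat.card (fixSub (V := V) g) :=
  Nat.card_congr
    { toFun := fun v => ⟨v.1.1, v.2⟩
      invFun := fun v => ⟨⟨v.1, trivial⟩, v.2⟩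
      left_inv := fun _ => rfl
      right_inv := fun _ => rfl }

theorem fix_eq_zero (hc : Nat.card V = 2048) (a : Γ) (ha : ∀ v : V, a ^ 23 • v = v)
    (hne : ∃ v : V, a • v ≠ v) (v : V) (hv : a • v = v) : v = 0 := by
  have : Fact (Nat.Prime 23) := ⟨by norm_num⟩
  have h := card_fix_modEq 23 a ha ⊤ (fun _ _ => trivial)
  rw [card_fix_top, AddSubgroup.card_top, hc] at h
  have hd : Nat.card (fixSub (V := V) a) ∣ 2048 := hc ▸ AddSubgroup.card_addSubgroup_dvd_card _
  rcases dvd_2048_mod hd (by unfold Nat.ModEq at h; omega) with h1 | h1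
  · have hb := (AddSubgroup.card_eq_one (H := fixSub (V := V) a)).mp h1
    have : v ∈ fixSub (V := V) a := hv
    rw [hb] at this
    exact this
  · exfalso
    have ht := (AddSubgroup.card_eq_iff_eq_top (fixSub (V := V) a)).mp (h1.trans hc.symm)
    obtain ⟨x, hx⟩ := hne
    have : x ∈ fixSub (V := V) a := ht ▸ trivial
    exact hx this

theorem inv_eq_top (hc : Nat.card V = 2048) (a : Γ) (ha : ∀ v : V, a ^ 23 • v = v)
    (hne : ∃ v : V, a • v ≠ v) (W : AddSubgroup V) (hW : ∀ v ∈ W, a • v ∈ W)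
    {x : V} (hx : x ∈ W) (hx0 : x ≠ 0) : W = ⊤ := by
  have : Fact (Nat.Prime 23) := ⟨by norm_num⟩
  have h := card_fix_modEq 23 a ha W hW
  have h1 : Nat.card {v : W // a • (v : V) = v} = 1 := by
    rw [Nat.card_eq_one_iff_exists]
    refine ⟨⟨0, by simp⟩, fun y => Subtype.ext (Subtype.ext ?_)⟩
    exact fix_eq_zero hc a ha hne _ y.2
  rw [h1] at h
  have hd : Nat.card W ∣ 2048 := hc ▸ AddSubgroup.card_addSubgroup_dvd_card _
  rcases dvd_2048_mod hd (by unfold Nat.ModEq at h; omega) with h1 | h1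
  · have hb := (AddSubgroup.card_eq_one (H := W)).mp h1
    rw [hb] at hx
    exact absurd hx hx0
  · exact (AddSubgroup.card_eq_iff_eq_top W).mp (h1.trans hc.symm)

theorem exists_fix_eleven (hc : Nat.card V = 2048) (b : Γ) (hb : ∀ v : V, b ^ 11 • v = v) :
    ∃ v : V, v ≠ 0 ∧ b • v = v := by
  have : Fact (Nat.Prime 11) := ⟨by norm_num⟩
  have h := card_fix_modEq 11 b hb ⊤ (fun _ _ => trivial)
  rw [card_fix_top, AddSubgroup.card_top, hc] at h
  by_contra hno
  push Not at hno
  have hbot : fixSub (V := V) b = ⊥ := by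
    rw [eq_bot_iff]
    intro v hv
    by_contra h0
    exact hno v h0 hv
  rw [hbot, AddSubgroup.card_bot] at h
  unfold Nat.ModEq at h
  omega

end count

end Cfsg.Agent.H1.Md
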