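import Mathlib
import Cfsg.Agent.H1.MdCore

set_option autoImplicit false
set_option maxRecDepth 100000

namespace Cfsg.Agent.H1.Md

open Cfsg.Agent.H42

/-- Rotation of an 11-bit mask by `6 k` places. -/
def rk (u k : ℕ) : ℕ :=
  Nat.mod (Nat.shiftRight (Nat.mul u 2049) (Nat.sub 11 (Nat.mod (Nat.mul 6 k) 11))) 2048

theorem rk_lt (u k : ℕ) : rk u k < 2 ^ 11 := Nat.mod_lt _ (by norm_num)

theorem rk_chk : allB (fun u => allB (fun k =>
    Nat.beq (xorC (fun i => Nat.pow 2 (Nat.mod (Nat.add i (Nat.mul 6 k)) 11)) u 11) (rk u k)) 11) 2048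
    = true := by decide +kernel

theorem rk_eq {u k : ℕ} (hu : u < 2048) (hk : k < 11) :
    xorC (fun i => 2 ^ ((i + 6 * k) % 11)) u 11 = rk u k :=
  beq_iff.mp (of_allB (of_allB rk_chk hu) hk)

/-- Rotation of a 23-bit mask. -/
def rq (q t : ℕ) : ℕ := Nat.mod (Nat.shiftRight (Nat.mul q 8388609) (Nat.sub 23 t)) 8388608

/-- Table of `a ^ s` in the normal basis. -/
def tA (IX R s k : ℕ) : ℕ := fld 11 R (Nat.mod (Nat.add (fld 5 IX k) s) 23)

/-- One application of `a ^ 2 * w`. -/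
noncomputable def stepF (IX R u m : ℕ) : ℕ := force (xorC (rk u) m 11) fun x => xorC (tA IX R 2) x 11

/-- Four applications. -/
noncomputable def step4 (IX R u m : ℕ) : ℕ :=
  force (stepF IX R u m) fun x => force (stepF IX R u x) fun y => force (stepF IX R u y) fun z =>
    stepF IX R u z

noncomputable def chk1 (q : ℕ) : Bool :=
  Nat.beq (rq q 0) q && allB (fun t => Nat.beq
    (xorC (fun i => Nat.pow 2 (Nat.mod (Nat.add i 1) 23)) (rq q t) 23) (rq q (Nat.add t 1))) 22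

noncomputable def chk2 (q IX R C : ℕ) : Bool :=
  allB (fun i => Nat.beq (Nat.xor (Nat.pow 2 i) (xorC (fun k => Nat.pow 2 (fld 5 IX k)) (fld 11 R i) 11))
    (xorC (rq q) (fld 23 C i) 23)) 23

noncomputable def chk3 (IX : ℕ) : Bool :=
  allB (fun k => Nat.ble (fld 5 IX k) 22 &&
    Nat.beq (fld 5 IX (Nat.mod (Nat.add k 1) 11)) (Nat.mod (Nat.mul 2 (fld 5 IX k)) 23)) 11

noncomputable def chk4 (IX R u0 : ℕ) : Bool :=
  allB (fun u => iteB (Nat.beq (step4 IX R u 1) 1) (iteB (Nat.beq (step4 IX R u 2) 2)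
    (iteB (Nat.beq (step4 IX R u 4) 4) (Nat.beq u u0) true) true) true) 2048

section core
variable {V : Type*} [AddCommGroup V] {Γ : Type*} [Monoid Γ] [DistribMulAction Γ V]

theorem pow_mod_smul {a : Γ} {n : ℕ} (ha : ∀ v : V, a ^ n • v = v) (i : ℕ) (v : V) :
    a ^ (i % n) • v = a ^ i • v := by
  have h : ∀ (k : ℕ) (v : V), (a ^ n) ^ k • v = v := by
    intro k
    induction k with
    | zero => intro v; simp
    | succ k ih => intro v; rw [pow_succ, mul_smul, ha, ih]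
  conv_rhs => rw [← Nat.mod_add_div i n, pow_add, pow_mul, mul_smul, h]

theorem b_pow_a {a b : Γ} (hba : ∀ v : V, b • a • v = a ^ 2 • b • v) (i : ℕ) (v : V) :
    b • a ^ i • v = a ^ (2 * i) • b • v := by
  induction i with
  | zero => simp
  | succ i ih =>
    rw [pow_succ', mul_smul, hba, ih, ← mul_smul, ← pow_add]
    congr 2; ring

theorem w_pow_b {b w : Γ} (hwb : ∀ v : V, w • b • v = b ^ 6 • w • v) (i : ℕ) (v : V) :
    w • b ^ i • v = b ^ (6 * i) • w • v := by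
  induction i with
  | zero => simp
  | succ i ih =>
    rw [pow_succ', mul_smul, hwb, ih, ← mul_smul, ← pow_add]
    congr 2; ring

theorem smul_S {a : Γ} (h2 : ∀ v : V, v + v = 0) (ha : ∀ v : V, a ^ 23 • v = v) (v0 : V) (m : ℕ) :
    a • mdL (fun i => a ^ i • v0) m 23 =
      mdL (fun i => a ^ i • v0) (xorC (fun i => 2 ^ ((i + 1) % 23)) m 23) 23 := by
  rw [smul_mdL, mdL_xorC h2]
  refine mdL_congr _ _ fun i _ => ?_
  rw [mdL_two_pow _ (Nat.mod_lt _ (by norm_num)), pow_mod_smul ha, pow_succ', mul_smul]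

theorem pow_smul_S {a : Γ} (h2 : ∀ v : V, v + v = 0) (ha : ∀ v : V, a ^ 23 • v = v) (v0 : V) {q : ℕ}
    (h1 : chk1 q = true) {t : ℕ} (ht : t < 23) :
    a ^ t • mdL (fun i => a ^ i • v0) q 23 = mdL (fun i => a ^ i • v0) (rq q t) 23 := by
  rw [chk1, Bool.and_eq_true] at h1
  induction t with
  | zero => rw [pow_zero, one_smul, beq_iff.mp h1.1]
  | succ t ih =>
    rw [pow_succ', mul_smul, ih (by omega), smul_S h2 ha]
    have := beq_iff.mp (of_allB h1.2 (show t < 22 by omega))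
    exact congrArg (fun x => mdL (fun i => a ^ i • v0) x 23) this

theorem core [Finite V] (hc : Nat.card V = 2048) (h2 : ∀ v : V, v + v = 0) (a b w : Γ)
    (ha : ∀ v : V, a ^ 23 • v = v) (hne : ∃ v : V, a • v ≠ v)
    (hba : ∀ v : V, b • a • v = a ^ 2 • b • v) (hwb : ∀ v : V, w • b • v = b ^ 6 • w • v)
    (hrel : ∀ v : V, (a ^ 2 * w) ^ 4 • v = v) (v0 : V) (hv0 : v0 ≠ 0) (hb0 : b • v0 = v0)
    (q IX R C u0 : ℕ) (hq : mdL (fun i => a ^ i • v0) q 23 = 0)
    (h1 : chk1 q = true) (hh2 : chk2 q IX R C = true) (h3 : chk3 IX = true) (h4 : chk4 IX R u0 = true) :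
    ∃ E : ℕ → V, E 0 = 0 ∧ (∀ x y, E (x ^^^ y) = E x + E y) ∧ (∀ v, ∃ m < 2048, E m = v) ∧
      (∀ x < 2048, ∀ y < 2048, E x = E y → x = y) ∧
      (∀ m, a • E m = E (xorC (tA IX R 1) m 11)) ∧ (∀ m, w • E m = E (xorC (rk u0) m 11)) := by
  set vv : ℕ → V := fun i => a ^ i • v0 with hvv
  set nn : ℕ → V := fun k => vv (fld 5 IX k) with hnn
  set E : ℕ → V := fun m => mdL nn m 11 with hE
  have hE0 : E 0 = 0 := mdL_mask_zero _ _
  have hEx : ∀ x y, E (x ^^^ y) = E x + E y := fun x y => mdL_xor h2 _ _ _ _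
  have hix : ∀ k < 11, fld 5 IX k < 23 ∧ fld 5 IX ((k + 1) % 11) = 2 * fld 5 IX k % 23 := by
    intro k hk
    have := of_allB h3 hk
    rw [Bool.and_eq_true] at this
    exact ⟨Nat.lt_succ_of_le (ble_iff.mp this.1), beq_iff.mp this.2⟩
  have hrq : ∀ t < 23, mdL vv (rq q t) 23 = 0 := by
    intro t ht
    rw [← pow_smul_S h2 ha v0 h1 ht, hq, smul_zero]
  have hR : ∀ i < 23, vv i = E (fld 11 R i) := by
    intro i hi
    have e := beq_iff.mp (of_allB hh2 hi)
    have e2 : mdL vv (2 ^ i ^^^ xorC (fun k => 2 ^ fld 5 IX k) (fld 11 R i) 11) 23 =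
        mdL vv (xorC (rq q) (fld 23 C i) 23) 23 := congrArg (fun x => mdL vv x 23) e
    rw [mdL_xor h2, mdL_xorC h2, mdL_xorC h2, mdL_fun_zero _ _ hrq, mdL_two_pow _ hi] at e2
    have e3 : mdL (fun k => mdL vv (2 ^ fld 5 IX k) 23) (fld 11 R i) 11 = E (fld 11 R i) :=
      mdL_congr _ _ fun k hk => mdL_two_pow _ (hix k hk).1
    rw [e3] at e2
    have := h2 (E (fld 11 R i))
    rw [← e2] at this
    exact (add_right_cancel this).symm
  have hA : ∀ s m, a ^ s • E m = E (xorC (tA IX R s) m 11) := by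
    intro s m
    rw [map_xorC E hE0 hEx]
    show a ^ s • mdL nn m 11 = _
    rw [smul_mdL]
    refine mdL_congr _ _ fun k _ => ?_
    show a ^ s • a ^ (fld 5 IX k) • v0 = E (fld 11 R ((fld 5 IX k + s) % 23))
    rw [← hR _ (Nat.mod_lt _ (by norm_num))]
    show _ = a ^ ((fld 5 IX k + s) % 23) • v0
    rw [pow_mod_smul ha, ← mul_smul, ← pow_add, add_comm]
  have hbn : ∀ k < 11, b • nn k = nn ((k + 1) % 11) := by
    intro k hk
    show b • a ^ (fld 5 IX k) • v0 = a ^ (fld 5 IX ((k + 1) % 11)) • v0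
    rw [b_pow_a hba, hb0, (hix k hk).2, pow_mod_smul ha]
  have hbj : ∀ j, ∀ k < 11, b ^ j • nn k = nn ((k + j) % 11) := by
    intro j k hk
    induction j with
    | zero => rw [pow_zero, one_smul, add_zero, Nat.mod_eq_of_lt hk]
    | succ j ih =>
      rw [pow_succ', mul_smul, ih, hbn _ (Nat.mod_lt _ (by norm_num))]
      congr 1; omega
  have hB : ∀ j m, b ^ j • E m = E (xorC (fun i => 2 ^ ((i + j) % 11)) m 11) := by
    intro j m
    rw [map_xorC E hE0 hEx]
    show b ^ j • mdL nn m 11 = _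
    rw [smul_mdL]
    refine mdL_congr _ _ fun k hk => ?_
    rw [hbj j k hk]
    exact (mdL_two_pow nn (Nat.mod_lt _ (by norm_num))).symm
  have hAlt : ∀ s m, xorC (tA IX R s) m 11 < 2048 := fun s m =>
    xorC_lt (n := 11) m 11 fun i _ => fld_lt _ _ _
  let W : AddSubgroup V :=
    { carrier := {v | ∃ m < 2048, E m = v}
      zero_mem' := ⟨0, by norm_num, hE0⟩
      add_mem' := by
        rintro x y ⟨m, hm, rfl⟩ ⟨n, hn, rfl⟩
        exact ⟨m ^^^ n, Nat.xor_lt_two_pow (n := 11) hm hn, hEx m n⟩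
      neg_mem' := by
        rintro x ⟨m, hm, rfl⟩
        exact ⟨m, hm, (neg_eq_of_add_eq_zero_left (h2 _)).symm⟩ }
  have hW : W = ⊤ := by
    refine inv_eq_top hc a ha hne W ?_ (x := v0) ?_ hv0
    · rintro x ⟨m, hm, rfl⟩
      refine ⟨_, hAlt 1 m, ?_⟩
      rw [← hA, pow_one]
    · refine ⟨_, fld_lt 11 R 0, ?_⟩
      rw [← hR 0 (by norm_num)]
      show a ^ 0 • v0 = v0
      simp
  have hsurj : ∀ v, ∃ m < 2048, E m = v := fun v => (hW ▸ trivial : v ∈ W)
  have hinj : ∀ x < 2048, ∀ y < 2048, E x = E y → x = y := by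
    have hs : Function.Surjective (fun m : Fin 2048 => E m) := fun v => by
      obtain ⟨m, hm, rfl⟩ := hsurj v
      exact ⟨⟨m, hm⟩, rfl⟩
    have hbij := hs.bijective_of_nat_card_le (by rw [hc]; simp)
    intro x hx y hy e
    exact congrArg Fin.val (hbij.1 (a₁ := ⟨x, hx⟩) (a₂ := ⟨y, hy⟩) e)
  obtain ⟨u, hu, huE⟩ := hsurj (w • nn 0)
  have hWu : ∀ m, w • E m = E (xorC (rk u) m 11) := by
    intro m
    rw [map_xorC E hE0 hEx]
    show w • mdL nn m 11 = _
    rw [smul_mdL]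
    refine mdL_congr _ _ fun k hk => ?_
    have e : nn k = b ^ k • nn 0 := by rw [hbj k 0 (by norm_num), zero_add, Nat.mod_eq_of_lt hk]
    rw [e, w_pow_b hwb, ← huE, hB, rk_eq hu hk]
  have hF : ∀ m, (a ^ 2 * w) • E m = E (stepF IX R u m) := by
    intro m
    rw [mul_smul, hWu, hA, stepF, force_eq]
  have hF4 : ∀ m < 2048, step4 IX R u m = m := by
    intro m hm
    have e := hrel (E m)
    rw [pow_succ, pow_succ, pow_succ, pow_one, mul_smul, mul_smul, mul_smul, hF, hF, hF, hF] at e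
    refine hinj _ ?_ _ hm ?_
    · simp only [step4, stepF, force_eq]
      exact hAlt _ _
    · simp only [step4, force_eq]
      exact e
  have hu0 : u = u0 := by
    have := of_allB h4 hu
    rw [beq_iff.mpr (hF4 1 (by norm_num)), beq_iff.mpr (hF4 2 (by norm_num)),
      beq_iff.mpr (hF4 4 (by norm_num)), iteB_true, iteB_true, iteB_true] at this
    exact beq_iff.mp this
  refine ⟨E, hE0, hEx, hsurj, hinj, fun m => ?_, fun m => hu0 ▸ hWu m⟩
  rw [← hA, pow_one]

end core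

end Cfsg.Agent.H1.Md
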