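import Mathlib
import Cfsg.Agent.H1.MdMain
import Cfsg.Agent.H42.M24

set_option autoImplicit false
set_option maxRecDepth 100000

namespace Cfsg.Agent.H1.Md

open Cfsg Cfsg.Agent.H42
open scoped symmDiff Pointwise

def gB : ℕ := 983435072843990828779021698901151808
def gW : ℕ := 3135081975744421648290540234979703
def qQ : ℕ := 340830
def qN : ℕ := 8047776
def ixG : ℕ := 13005372977041078
def rG : ℕ := 7074721368127502407166333300330077259938863314861603309214447658988161023
def cG : ℕ := 63207527511849774822452035622826829958177280497962633764487415124845139538882493097374814652814320071492172813896320337420749940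
def phG : ℕ := 3369780006291492761414328438384237759199
def secG : ℕ := 26519858951449741294526426404842731922860333066180845875611059008659414979536464
def ixT : ℕ := 13725669972512833
def rT : ℕ := 13405790313498308871730216551134252906521651820968933042397886656359455264767
def cT : ℕ := 827932230529327096568918643028084385634805019919826036476269819964419653675436375819284626913669340475385394491938147249315834233464943036852948584496106210
def secT : ℕ := 14828625311384130308489204427800648029253296013669805580819732053485419344429058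

theorem inM_gB : inM gB = true := by decide +kernel
theorem inM_gW : inM gW = true := by decide +kernel

theorem rel_a : toM gShift ^ 23 = 1 := by
  rw [← toM_ppow inM_gShift, ← toM_pid]
  exact congrArg toM (by decide +kernel)

theorem rel_b : toM gB ^ 11 = 1 := by
  rw [← toM_ppow inM_gB, ← toM_pid]
  exact congrArg toM (by decide +kernel)

theorem rel_ba : toM gB * toM gShift = toM gShift ^ 2 * toM gB := by
  rw [← toM_ppow inM_gShift, ← toM_pmul inM_gB inM_gShift,
    ← toM_pmul (inM_ppow inM_gShift 2) inM_gB]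
  exact congrArg toM (by decide +kernel)

theorem rel_wb : toM gW * toM gB = toM gB ^ 6 * toM gW := by
  rw [← toM_ppow inM_gB, ← toM_pmul inM_gW inM_gB,
    ← toM_pmul (inM_ppow inM_gB 6) inM_gW]
  exact congrArg toM (by decide +kernel)

theorem rel_aw : (toM gShift ^ 2 * toM gW) ^ 4 = 1 := by
  rw [← toM_ppow inM_gShift, ← toM_pmul (inM_ppow inM_gShift 2) inM_gW,
    ← toM_ppow (inM_pmul (inM_ppow inM_gShift 2) inM_gW), ← toM_pid]
  exact congrArg toM (by decide +kernel)

theorem rel_inv : toM gInv = toM gW ^ 5 := by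
  rw [← toM_ppow inM_gW]
  exact congrArg toM (by decide +kernel)

theorem rel_tw : toM gTwist = toM gW ^ 2 := by
  rw [← toM_ppow inM_gW]
  exact congrArg toM (by decide +kernel)

theorem chkQ1 : chk1 qQ = true := by decide +kernel
theorem chkN1 : chk1 qN = true := by decide +kernel
theorem chkG2 : chk2 qQ ixG rG cG = true := by decide +kernel
theorem chkT2 : chk2 qN ixT rT cT = true := by decide +kernel
theorem chkG3 : chk3 ixG = true := by decide +kernel
theorem chkT3 : chk3 ixT = true := by decide +kernel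
theorem chkG4 : chk4 ixG rG 734 = true := by decide +kernel
theorem chkT4 : chk4 ixT rT 1099 = true := by decide +kernel

/-- The linear map on masks given by a table. -/
noncomputable def phi (PH n : ℕ) : ℕ := xorC (fld 11 PH) n 24

theorem phi_lt (PH n : ℕ) : phi PH n < 2048 := xorC_lt (n := 11) n 24 fun _ _ => fld_lt _ _ _

theorem phi_xor (PH a b : ℕ) : phi PH (a ^^^ b) = phi PH a ^^^ phi PH b := xorC_xor _ _ _ _

theorem chkG5 : allB (fun m => force (enc m) fun n => force (phi phG n) fun x =>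
    Nat.beq (xorC (tA ixG rG 1) x 11) (phi phG (img gShift n)) &&
    Nat.beq (xorC (rk 734) x 11) (phi phG (img gW n)) &&
    iteB (Nat.beq x 0) (Nat.beq n 0 || Nat.beq n 16777215) true) 4096 = true := by decide +kernel

theorem chkG6 : allB (fun m => force (xorC (fld 24 secG) m 11) fun n =>
    isCode n && Nat.beq (phi phG n) m) 2048 = true := by decide +kernel

theorem chkG7 : phi phG 16777215 = 0 := by decide +kernel

theorem chkT5 : allB (fun i =>
    Nat.beq (xorC (tA ixT rT 1) (fld 11 rT i) 11) (Nat.xor (fld 11 rT (app gShift i)) 0) &&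
    Nat.beq (xorC (rk 1099) (fld 11 rT i) 11) (Nat.xor (fld 11 rT (app gW i)) 2047)) 24 = true := by
  decide +kernel

theorem chkT6 : allB (fun m => force (xorC (fld 24 secT) m 11) fun n =>
    Nat.ble n 16777215 && Nat.beq (Nat.mod (pc n) 2) 0 && Nat.beq (phi rT n) m) 2048 = true := by
  decide +kernel

theorem chkT7 : allB (fun m => Nat.beq (phi rT (enc m)) 0 &&
    iteB (Nat.beq (phi rT (Nat.mul m 4096)) 0)
      (iteB (Nat.beq (Nat.mod (pc (Nat.mul m 4096)) 2) 0) (Nat.beq m 0) true) true) 4096 = true := by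
  decide +kernel

theorem mask_symmDiff (c d : Finset GolayPt) : mask (c ∆ d) = mask c ^^^ mask d := by
  have h := toSet_xor (mask c) (mask d)
  rw [toSet_mask, toSet_mask] at h
  rw [← h]
  exact mask_toSet (xor_lt (mask_lt c) (mask_lt d))

theorem mask_empty : mask ∅ = 0 := by rw [← toSet_zero, mask_toSet (by norm_num)]

theorem mask_single {i : ℕ} (hi : i < 24) : mask {pt i} = 2 ^ i := by
  rw [← toSet_pow hi]
  exact mask_toSet (Nat.pow_lt_pow_right (by norm_num) hi)

theorem phi_zero (PH : ℕ) : phi PH 0 = 0 := by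
  have := phi_xor PH 0 0
  simpa using this

theorem phi_pow (PH : ℕ) {i : ℕ} (hi : i < 24) : phi PH (2 ^ i) = fld 11 PH i := by
  have h : ∀ k, xorC (fld 11 PH) (2 ^ i) k = if i < k then fld 11 PH i else 0 := by
    intro k
    induction k with
    | zero => simp [xorC_zero]
    | succ k ih =>
      rw [xorC_succ, ih, Nat.testBit_two_pow]
      by_cases h1 : i = k
      · subst h1; simp
      · by_cases h2 : i < k
        · simp [h1, h2, Nat.lt_succ_of_lt h2]
        · have : ¬ i < k + 1 := by omega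
          simp [h1, h2, this]
  rw [phi, h, if_pos hi]

section abs
variable {V : Type*} [AddCommGroup V] [DistribMulAction M24 V]

theorem equiv_all (D : Finset GolayPt → Prop) (hD : ∀ (g : M24) c, D c → D (g • c))
    (ψ : Finset GolayPt → V) (ha : ∀ c, D c → toM gShift • ψ c = ψ (toM gShift • c))
    (hw : ∀ c, D c → toM gW • ψ c = ψ (toM gW • c)) (g : M24) : ∀ c, D c → g • ψ c = ψ (g • c) := by
  let H : Subgroup M24 :=
    { carrier := {g | ∀ c, D c → g • ψ c = ψ (g • c)}
      one_mem' := fun c _ => by simp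
      mul_mem' := fun {x y} hx hy c hc => by
        rw [mul_smul, hy c hc, hx _ (hD y c hc), mul_smul]
      inv_mem' := fun {x} hx c hc => by
        have := hx _ (hD x⁻¹ c hc)
        rw [smul_inv_smul] at this
        rw [← this, inv_smul_smul] }
  have hwH : toM gW ∈ H := hw
  have hle : gen [gShift, gInv, gTwist] ≤ H := by
    refine gen_le H fun x hx => ?_
    simp only [List.mem_cons, List.not_mem_nil, or_false] at hx
    rcases hx with rfl | rfl | rfl
    · exact ha
    · rw [rel_inv]; exact H.pow_mem hwH 5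
    · rw [rel_tw]; exact H.pow_mem hwH 2
  rw [gen_three_eq_top] at hle
  exact hle (Subgroup.mem_top g)

theorem exists_v0 [Finite V] (hc : Nat.card V = 2048) (h2 : ∀ v : V, v + v = 0)
    (hne : ∃ v : V, toM gShift • v ≠ v) :
    ∃ v0 : V, v0 ≠ 0 ∧ toM gB • v0 = v0 ∧ (mdL (fun i => toM gShift ^ i • v0) qQ 23 = 0 ∨
      mdL (fun i => toM gShift ^ i • v0) qN 23 = 0) := by
  have ha : ∀ v : V, toM gShift ^ 23 • v = v := fun v => by rw [rel_a, one_smul]
  have hba : ∀ v : V, toM gB • toM gShift • v = toM gShift ^ 2 • toM gB • v := fun v => by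
    rw [← mul_smul, rel_ba, mul_smul]
  obtain ⟨v, hv0, hv⟩ := exists_fix_eleven hc (toM gB) (fun v => by rw [rel_b, one_smul])
  by_cases h : mdL (fun i => toM gShift ^ i • v) qQ 23 = 0
  · exact ⟨v, hv0, hv, Or.inl h⟩
  refine ⟨_, h, ?_, Or.inr ?_⟩
  · have e : xorC (fun i => 2 ^ (2 * i % 23)) qQ 23 = qQ := by decide +kernel
    conv_rhs => rw [← e]
    rw [smul_mdL, mdL_xorC h2]
    refine mdL_congr _ _ fun i _ => ?_
    rw [mdL_two_pow _ (Nat.mod_lt _ (by norm_num)), pow_mod_smul ha, b_pow_a hba, hv]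
  · rw [mdL_congr (f' := fun i => mdL (fun i => toM gShift ^ i • v) (rq qQ i) 23) _ _
      fun i hi => pow_smul_S h2 ha v chkQ1 hi, ← mdL_xorC h2]
    have e : xorC (rq qQ) qN 23 = 8388607 := by decide +kernel
    rw [e]
    refine fix_eq_zero hc (toM gShift) ha hne _ ?_
    rw [smul_S h2 ha]
    have e2 : xorC (fun i => 2 ^ ((i + 1) % 23)) 8388607 23 = 8388607 := by decide +kernel
    rw [e2]

theorem golay_case (E : ℕ → V) (h0 : E 0 = 0) (hx : ∀ x y, E (x ^^^ y) = E x + E y)
    (hs : ∀ v, ∃ m < 2048, E m = v) (hi : ∀ x < 2048, ∀ y < 2048, E x = E y → x = y)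
    (ha : ∀ m, toM gShift • E m = E (xorC (tA ixG rG 1) m 11))
    (hw : ∀ m, toM gW • E m = E (xorC (rk 734) m 11)) :
    ∃ ψ : Finset GolayPt → V, (∀ c d, ψ (c ∆ d) = ψ c + ψ d) ∧ (∀ v, ∃ c ∈ codeSets, ψ c = v) ∧
      (∀ c ∈ codeSets, ψ c = 0 ↔ c = ∅ ∨ c = Finset.univ) ∧
      ∀ (g : M24), ∀ c ∈ codeSets, g • ψ c = ψ (g • c) := by
  have hk : ∀ m < 4096, xorC (tA ixG rG 1) (phi phG (enc m)) 11 = phi phG (img gShift (enc m)) ∧
      xorC (rk 734) (phi phG (enc m)) 11 = phi phG (img gW (enc m)) ∧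
      (phi phG (enc m) = 0 → enc m = 0 ∨ enc m = 16777215) := by
    intro m hm
    have := of_allB chkG5 hm
    simp only [force_eq, Bool.and_eq_true] at this
    refine ⟨beq_iff.mp this.1.1, beq_iff.mp this.1.2, fun h => ?_⟩
    have h3 := this.2
    rw [beq_iff.mpr h, iteB_true, Bool.or_eq_true] at h3
    exact h3.imp beq_iff.mp beq_iff.mp
  refine ⟨fun c => E (phi phG (mask c)), fun c d => ?_, fun v => ?_, fun c hc => ?_, fun g => ?_⟩
  · beta_reduce
    rw [mask_symmDiff, phi_xor, hx]
  · obtain ⟨m, hm, rfl⟩ := hs v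
    have := of_allB chkG6 hm
    simp only [force_eq, Bool.and_eq_true] at this
    refine ⟨_, toSet_mem_codeSets this.1, ?_⟩
    beta_reduce
    rw [mask_toSet (isCode_lt this.1), beq_iff.mp this.2]
  · obtain ⟨m, hm, rfl⟩ := (mem_codeSets_iff_enc c).mp hc
    beta_reduce
    rw [mask_toSet (enc_lt m)]
    constructor
    · intro h
      rcases (hk m hm).2.2 (hi _ (phi_lt _ _) 0 (by norm_num) (h.trans h0.symm)) with e | e
      · left; rw [e, toSet_zero]
      · right; rw [e, toSet_full]
    · rintro (e | e)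
      · rw [(toSet_eq_empty_iff (enc_lt m)).mp e, phi_zero, h0]
      · rw [← toSet_full] at e
        rw [toSet_inj (enc_lt m) (by norm_num) e, chkG7, h0]
  · refine equiv_all (fun c => c ∈ codeSets) (fun g c hc => (msmul_mem_codeSets_iff g).mpr hc)
      (fun c => E (phi phG (mask c))) (fun c hc => ?_) (fun c hc => ?_) g
    · obtain ⟨m, hm, rfl⟩ := (mem_codeSets_iff_enc c).mp hc
      beta_reduce
      rw [toM_smul_toSet inM_gShift, mask_toSet (enc_lt m),
        mask_toSet (img_lt (inM_isPerm inM_gShift) _), ha, (hk m hm).1]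
    · obtain ⟨m, hm, rfl⟩ := (mem_codeSets_iff_enc c).mp hc
      beta_reduce
      rw [toM_smul_toSet inM_gW, mask_toSet (enc_lt m),
        mask_toSet (img_lt (inM_isPerm inM_gW) _), hw, (hk m hm).2.1]

theorem add_eq_sum (ψ : Finset GolayPt → V) (h0 : ψ ∅ = 0) (hx : ∀ c d, ψ (c ∆ d) = ψ c + ψ d)
    (c : Finset GolayPt) : ψ c = ∑ p ∈ c, ψ {p} := by
  classical
  induction c using Finset.induction_on with
  | empty => simpa using h0
  | insert p s hp ih =>
    have e : insert p s = ({p} : Finset GolayPt) ∆ s := by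
      ext x
      simp only [Finset.mem_insert, Finset.mem_symmDiff, Finset.mem_singleton]
      constructor
      · rintro (rfl | h)
        · exact Or.inl ⟨rfl, hp⟩
        · exact Or.inr ⟨h, fun e => hp (e ▸ h)⟩
      · rintro (h | h)
        · exact Or.inl h.1
        · exact Or.inr h.1
    rw [Finset.sum_insert hp, ← ih, ← hx, ← e]

theorem even_equiv (h2 : ∀ v : V, v + v = 0) (ψ : Finset GolayPt → V) (h0 : ψ ∅ = 0)
    (hx : ∀ c d, ψ (c ∆ d) = ψ c + ψ d) (g : M24) (κ : V)
    (h : ∀ p, g • ψ {p} = ψ {g • p} + κ) (c : Finset GolayPt) (hc : Even c.card) :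
    g • ψ c = ψ (g • c) := by
  classical
  rw [add_eq_sum ψ h0 hx c, add_eq_sum ψ h0 hx (g • c), Finset.smul_sum,
    Finset.sum_congr rfl fun p _ => h p, Finset.sum_add_distrib, Finset.sum_const]
  obtain ⟨r, hr⟩ := hc
  rw [hr, add_nsmul, h2, add_zero, Finset.smul_finset_def,
    Finset.sum_image fun x _ y _ e => MulAction.injective g e]

theorem todd_case (h2 : ∀ v : V, v + v = 0) (E : ℕ → V) (h0 : E 0 = 0)
    (hx : ∀ x y, E (x ^^^ y) = E x + E y)
    (hs : ∀ v, ∃ m < 2048, E m = v) (hi : ∀ x < 2048, ∀ y < 2048, E x = E y → x = y)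
    (ha : ∀ m, toM gShift • E m = E (xorC (tA ixT rT 1) m 11))
    (hw : ∀ m, toM gW • E m = E (xorC (rk 1099) m 11)) :
    ∃ ψ : Finset GolayPt → V, (∀ c d, ψ (c ∆ d) = ψ c + ψ d) ∧ (∀ v, ∃ c, Even c.card ∧ ψ c = v) ∧
      (∀ c, Even c.card → (ψ c = 0 ↔ c ∈ codeSets)) ∧
      ∀ (g : M24), ∀ c, Even c.card → g • ψ c = ψ (g • c) := by
  have hadd : ∀ c d, E (phi rT (mask (c ∆ d))) = E (phi rT (mask c)) + E (phi rT (mask d)) := by
    intro c d
    rw [mask_symmDiff, phi_xor, hx]
  have hemp : E (phi rT (mask ∅)) = 0 := by rw [mask_empty, phi_zero, h0]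
  have h7 : ∀ m < 4096, phi rT (enc m) = 0 ∧
      (phi rT (m * 4096) = 0 → pc (m * 4096) % 2 = 0 → m = 0) := by
    intro m hm
    have := of_allB chkT7 hm
    simp only [Bool.and_eq_true] at this
    refine ⟨beq_iff.mp this.1, fun h h' => ?_⟩
    have h3 := this.2
    rw [show Nat.beq (phi rT (Nat.mul m 4096)) 0 = true from beq_iff.mpr h, iteB_true,
      show Nat.beq (Nat.mod (pc (Nat.mul m 4096)) 2) 0 = true from beq_iff.mpr h', iteB_true] at h3
    exact beq_iff.mp h3
  refine ⟨fun c => E (phi rT (mask c)), hadd, fun v => ?_, fun c hc => ?_, fun g => ?_⟩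
  · obtain ⟨m, hm, rfl⟩ := hs v
    have := of_allB chkT6 hm
    simp only [force_eq, Bool.and_eq_true] at this
    have hlt : xorC (fld 24 secT) m 11 < 2 ^ 24 := Nat.lt_succ_of_le (ble_iff.mp this.1.1)
    refine ⟨toSet (xorC (fld 24 secT) m 11), ?_, ?_⟩
    · rw [card_toSet hlt, Nat.even_iff]
      exact beq_iff.mp this.1.2
    · beta_reduce
      rw [mask_toSet hlt, beq_iff.mp this.2]
  · beta_reduce
    constructor
    · intro h
      have hphi : phi rT (mask c) = 0 := hi _ (phi_lt _ _) 0 (by norm_num) (h.trans h0.symm)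
      have hm : mask c % 4096 < 4096 := Nat.mod_lt _ (by norm_num)
      set m := mask c % 4096 with hmdef
      have hlt : mask c ^^^ enc m < 2 ^ 24 := xor_lt (mask_lt c) (enc_lt m)
      have hmod : (mask c ^^^ enc m) % 4096 = 0 := by
        have := Nat.xor_mod_two_pow (a := mask c) (b := enc m) (n := 12)
        norm_num at this
        rw [this, enc_mod hm, ← hmdef, Nat.xor_self]
      obtain ⟨k, hk⟩ : ∃ k, mask c ^^^ enc m = k * 4096 := ⟨(mask c ^^^ enc m) / 4096, by omega⟩
      have hk2 : k < 4096 := by omega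
      have hcode : toSet (enc m) ∈ codeSets := toSet_mem_codeSets (isCode_enc hm)
      have hev : pc (k * 4096) % 2 = 0 := by
        rw [← hk, ← card_toSet hlt]
        have e := toSet_xor (mask c) (enc m)
        rw [toSet_mask] at e
        have e' : toSet (mask c ^^^ enc m) = c ∆ toSet (enc m) := e
        have e2 := card_symmDiff_add c (toSet (enc m))
        have e3 := card_codeSets hcode
        rw [Nat.even_iff] at hc
        rw [e']
        omega
      have hk0 := (h7 k hk2).2 (by rw [← hk, phi_xor, hphi, (h7 m hm).1, Nat.xor_self]) hev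
      rw [hk0, zero_mul, Nat.xor_eq_zero_iff] at hk
      rw [← toSet_mask c, hk]
      exact hcode
    · intro h
      obtain ⟨m, hm, rfl⟩ := (mem_codeSets_iff_enc c).mp h
      rw [mask_toSet (enc_lt m), (h7 m hm).1, h0]
  · refine equiv_all (fun c => Even c.card) (fun g c hc => by rwa [Finset.card_smul_finset])
      (fun c => E (phi rT (mask c))) (fun c hc => ?_) (fun c hc => ?_) g
    · refine even_equiv h2 (fun c => E (phi rT (mask c))) hemp hadd _ (E 0) ?_ c hc
      rw [forall_pt]
      intro i hi'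
      have := of_allB chkT5 hi'
      simp only [Bool.and_eq_true] at this
      have hl := app_lt_of_isPerm (inM_isPerm inM_gShift) hi'
      beta_reduce
      rw [toM_smul_pt inM_gShift hi', mask_single hi', mask_single hl, phi_pow _ hi', phi_pow _ hl, ha,
        beq_iff.mp this.1, ← hx]
      rfl
    · refine even_equiv h2 (fun c => E (phi rT (mask c))) hemp hadd _ (E 2047) ?_ c hc
      rw [forall_pt]
      intro i hi'
      have := of_allB chkT5 hi'
      simp only [Bool.and_eq_true] at this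
      have hl := app_lt_of_isPerm (inM_isPerm inM_gW) hi'
      beta_reduce
      rw [toM_smul_pt inM_gW hi', mask_single hi', mask_single hl, phi_pow _ hi', phi_pow _ hl, hw,
        beq_iff.mp this.2, ← hx]
      rfl

/-- An eleven-dimensional module over the field of two elements on which the translation acts
non-trivially is the code modulo the all-one word or the even cocode. -/
theorem modAbs [Finite V] (hc : Nat.card V = 2048) (h2 : ∀ v : V, v + v = 0)
    (hne : ∃ v : V, toM gShift • v ≠ v) :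
    ∃ ψ : Finset GolayPt → V, (∀ c d, ψ (c ∆ d) = ψ c + ψ d) ∧
      (((∀ v, ∃ c ∈ codeSets, ψ c = v) ∧
      (∀ c ∈ codeSets, ψ c = 0 ↔ c = ∅ ∨ c = Finset.univ) ∧
      ∀ (g : M24), ∀ c ∈ codeSets, g • ψ c = ψ (g • c)) ∨
      ((∀ v, ∃ c, Even c.card ∧ ψ c = v) ∧
      (∀ c, Even c.card → (ψ c = 0 ↔ c ∈ codeSets)) ∧
      ∀ (g : M24), ∀ c, Even c.card → g • ψ c = ψ (g • c))) := by
  have ha : ∀ v : V, toM gShift ^ 23 • v = v := fun v => by rw [rel_a, one_smul]
  have hba : ∀ v : V, toM gB • toM gShift • v = toM gShift ^ 2 • toM gB • v := fun v => by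
    rw [← mul_smul, rel_ba, mul_smul]
  have hwb : ∀ v : V, toM gW • toM gB • v = toM gB ^ 6 • toM gW • v := fun v => by
    rw [← mul_smul, rel_wb, mul_smul]
  have hrel : ∀ v : V, (toM gShift ^ 2 * toM gW) ^ 4 • v = v := fun v => by rw [rel_aw, one_smul]
  obtain ⟨v0, hv0, hb, h | h⟩ := exists_v0 hc h2 hne
  · obtain ⟨E, e0, ex, es, ei, ea, ew⟩ := core hc h2 _ _ _ ha hne hba hwb hrel v0 hv0 hb
      qQ ixG rG cG 734 h chkQ1 chkG2 chkG3 chkG4
    obtain ⟨ψ, p1, p2⟩ := golay_case E e0 ex es ei ea ew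
    exact ⟨ψ, p1, Or.inl p2⟩
  · obtain ⟨E, e0, ex, es, ei, ea, ew⟩ := core hc h2 _ _ _ ha hne hba hwb hrel v0 hv0 hb
      qN ixT rT cT 1099 h chkN1 chkT2 chkT3 chkT4
    obtain ⟨ψ, p1, p2⟩ := todd_case h2 E e0 ex es ei ea ew
    exact ⟨ψ, p1, Or.inr p2⟩

end abs

end Cfsg.Agent.H1.Md
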