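import Mathlib
import Cfsg.Agent.H45.OnDefs

/-!
The intersection of two conjugate stabilizers of a component is the centralizer of an involution.
-/

set_option autoImplicit false

namespace Cfsg.Agent.H1.OnSs

open Cfsg.Agent.H45.On

universe u v

theorem ss (hI : InvStmt.{u}) : SsStmt.{u, v} := by
  intro G Ω _ _ _ _ S T hEV hE2 hE3 x y M s hM hxy hs hsy
  obtain ⟨M2, hM2, hne⟩ : ∃ M2, S.C x M2 ∧ M ≠ M2 := by
    obtain ⟨A, B, hA, hB, hAB⟩ := T.two x
    by_cases h : M = A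
    · exact ⟨B, hB, h ▸ hAB⟩
    · exact ⟨A, hA, h⟩
  obtain ⟨a, ha, hai, hay⟩ := hEV x y M2 hM2
  have hsa : s * a = a * s := S.comm hM hM2 hne s hs a ha
  have hsx : s • x = x := S.fx hM s hs
  have hsx' : s⁻¹ • x = x := S.fx hM _ (M.inv_mem hs)
  have hay' : a • s⁻¹ • y = s⁻¹ • y := by
    have e : a * s⁻¹ = s⁻¹ * a := by
      rw [eq_inv_mul_iff_mul_eq, ← mul_assoc, hsa, mul_inv_cancel_right]
    rw [← mul_smul, e, mul_smul, hay]
  obtain ⟨M', hM'⟩ := S.one y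
  have hcM : cj a M' = M' := hE2 y x M' M2 a hM' hM2 ha hay
  have hinv : a⁻¹ = a := inv_eq_of_mul_eq_one_right hai.1
  have hL : cj a (St M' (s⁻¹ • y)) = St M' (s⁻¹ • y) := by
    rw [cj_inf, hcM]
    congr 1
    ext g
    rw [mem_cj, MulAction.mem_stabilizer_iff, MulAction.mem_stabilizer_iff, hinv, mul_smul,
      mul_smul, hay']
    constructor
    · intro h
      have h2 := congrArg (fun z => a • z) h
      simp only [← mul_smul a a, hai.1, one_smul, hay'] at h2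
      exact h2
    · intro h
      rw [h, hay']
  obtain ⟨b, hb, hbi, hab⟩ := hI (St M' (s⁻¹ • y)) a hai.1 hL (by
    obtain ⟨t, ht, hti, hty⟩ := hEV y (s⁻¹ • y) M' hM'
    exact ⟨t, ⟨ht, hty⟩, hti⟩)
  have hbM : b ∈ M' := hb.1
  have hby' : b • s⁻¹ • y = s⁻¹ • y := hb.2
  have hby : b • y = y := S.fx hM' b hbM
  have hbx : b • x = x := (T.cn hM2 ha hai.2 hab.symm).2
  have hbinv : b⁻¹ = b := inv_eq_of_mul_eq_one_right hbi.1
  have hcb : cj b M = M := hE2 x y M M' b hM hM' hbM hbx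
  have hc : S.C (s • y) (cj s M') := S.conj s hM'
  have hb1 : s * b * s⁻¹ ∈ cj s M' := cj_mem hbM
  have hb1y : (s * b * s⁻¹) • y = y := by
    rw [mul_smul, mul_smul, hby', smul_inv_smul]
  have hb1x : (s * b * s⁻¹) • x = x := by
    rw [mul_smul, mul_smul, hsx', hbx, hsx]
  have hb1n : s * b * s⁻¹ ≠ 1 := by
    intro h
    apply hbi.2
    have : b = s⁻¹ * (s * b * s⁻¹) * s := by group
    rw [this, h]; group
  have hb1i : (s * b * s⁻¹) * (s * b * s⁻¹) = 1 := by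
    have : (s * b * s⁻¹) * (s * b * s⁻¹) = s * (b * b) * s⁻¹ := by group
    rw [this, hbi.1]; group
  have heM : b⁻¹ * (s * b * s⁻¹) ∈ M := by
    have h1 : b⁻¹ * s * b ∈ M := by
      have : s ∈ cj b M := by rw [hcb]; exact hs
      exact mem_cj.1 this
    have : b⁻¹ * (s * b * s⁻¹) = (b⁻¹ * s * b) * s⁻¹ := by group
    rw [this]
    exact M.mul_mem h1 (M.inv_mem hs)
  have hey : (b⁻¹ * (s * b * s⁻¹)) • y = y := by
    rw [mul_smul, hb1y, hbinv, hby]
  have hcomm : ∀ h ∈ St M y, h * b = b * h := fun h hh =>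
    hE3 x y M M' hM hM' hxy h hh b ⟨hbM, hbx⟩
  have heS : b⁻¹ * (s * b * s⁻¹) ∈ St M y := ⟨heM, hey⟩
  have hxs : x ≠ s • y := by
    intro h
    apply hxy
    rw [← hsx', h, inv_smul_smul]
  refine ⟨b⁻¹ * (s * b * s⁻¹), heS, ⟨?_, ?_⟩, ?_⟩
  · have h1 := hcomm _ heS
    generalize s * b * s⁻¹ = c at h1 hb1i ⊢
    rw [hbinv] at h1 ⊢
    have h2 : b * c * (b * c) = (b * c * b) * c := by group
    rw [h2, h1, ← mul_assoc b b, hbi.1, one_mul, hb1i]
  · intro h
    apply hsy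
    have h1 : s * b * s⁻¹ = b := by
      rw [inv_mul_eq_one] at h; exact h.symm
    have h2 : s * b = b * s := by
      rw [mul_inv_eq_iff_eq_mul] at h1; exact h1
    exact (T.cn hM' hbM hbi.2 h2).2
  · intro h hh
    have h1 := hcomm h hh
    have h3 : h * b⁻¹ = b⁻¹ * h := by rw [hbinv]; exact h1
    constructor
    · intro h2
      refine (T.cn hc hb1 hb1n ?_).2
      rw [← mul_assoc, h3, mul_assoc, mul_assoc b⁻¹] at h2
      exact mul_left_cancel h2
    · intro h2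
      have h4 := hE3 x (s • y) M (cj s M') hM hc hxs h ⟨hh.1, h2⟩ _ ⟨hb1, hb1x⟩
      rw [← mul_assoc, h3, mul_assoc, h4, mul_assoc b⁻¹]

end Cfsg.Agent.H1.OnSs
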