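import Mathlib
import Cfsg.Agent.H1.QtChk

set_option autoImplicit false
set_option maxRecDepth 100000

namespace Cfsg.Agent.H1.Qt

open Cfsg Subgroup
open Cfsg.Agent.H42 hiding cj card_cj mem_cj
open Cfsg.Agent.H83 Cfsg.Agent.H83.J4
open Cfsg.Agent.H49.JU (ca cm ca_eq ca_lt ca_xor fld_cm)
open scoped symmDiff Pointwise

theorem F_spec {i : ℕ} (hi : i < 64) : inM (fp i) = true ∧
    (∀ j < 64, pmul (fp i) (fp j) = fp (i ^^^ j)) ∧
    pmul gs0 (fp i) = pmul (fp (fld 6 aT0 i)) gs0 ∧ pmul gs1 (fp i) = pmul (fp (fld 6 aT1 i)) gs1 ∧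
    pmul om (fp i) = pmul (fp (fld 6 aTo i)) om ∧ ppow (pmul (fp i) om) 3 = pid ∧
    (pmul om (fp i) = pmul (fp i) om → i = 0) ∧ (fp i = pid → i = 0) := by
  have h := of_allB chk_F hi
  simp only [force_eq, Bool.and_eq_true, Bool.or_eq_true, beq_iff, Bool.not_eq_true',
    beq_false_iff, allB_iff] at h
  obtain ⟨⟨⟨⟨⟨⟨⟨h1, h2⟩, h3⟩, h4⟩, h5⟩, h6⟩, h7⟩, h8⟩ := h
  exact ⟨h1, h2, h3, h4, h5, h6, fun e => h7.resolve_right (fun n => n e),
    fun e => h8.resolve_right (fun n => n e)⟩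

theorem inM_fp {i : ℕ} (hi : i < 64) : inM (fp i) = true := (F_spec hi).1
theorem inM_om : inM om = true := chk_om.1
theorem inM_gs0 : inM gs0 = true := chk_om.2.1
theorem inM_gs1 : inM gs1 = true := chk_om.2.2.1

theorem xor_lt64 {i j : ℕ} (hi : i < 64) (hj : j < 64) : i ^^^ j < 64 :=
  Nat.xor_lt_two_pow (n := 6) hi hj

theorem xor_lt128 {i j : ℕ} (hi : i < 128) (hj : j < 128) : i ^^^ j < 128 :=
  Nat.xor_lt_two_pow (n := 7) hi hj

theorem fp_mul {i j : ℕ} (hi : i < 64) (hj : j < 64) :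
    toM (fp i) * toM (fp j) = toM (fp (i ^^^ j)) := by
  rw [← toM_pmul (inM_fp hi) (inM_fp hj), (F_spec hi).2.1 j hj]

theorem fp_zero : toM (fp 0) = 1 := by rw [chk_om.2.2.2.1, toM_pid]

theorem fp_sq {i : ℕ} (hi : i < 64) : toM (fp i) * toM (fp i) = 1 := by
  rw [fp_mul hi hi, Nat.xor_self, fp_zero]

theorem fp_eq_one {i : ℕ} (hi : i < 64) (h : toM (fp i) = 1) : i = 0 :=
  (F_spec hi).2.2.2.2.2.2.2 (toM_inj (inM_fp hi) inM_pid (h.trans toM_pid.symm))

theorem fp_inj {i j : ℕ} (hi : i < 64) (hj : j < 64) (h : toM (fp i) = toM (fp j)) : i = j := by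
  have := fp_mul hi hj
  rw [h, fp_sq hj] at this
  exact Nat.xor_eq_zero_iff.mp (fp_eq_one (xor_lt64 hi hj) this.symm)

/-- The normal subgroup of order 64 of the sextet group. -/
def FF : Subgroup M24 where
  carrier := {g | ∃ i < 64, toM (fp i) = g}
  one_mem' := ⟨0, by norm_num, fp_zero⟩
  mul_mem' := by
    rintro _ _ ⟨i, hi, rfl⟩ ⟨j, hj, rfl⟩
    exact ⟨_, xor_lt64 hi hj, (fp_mul hi hj).symm⟩
  inv_mem' := by
    rintro _ ⟨i, hi, rfl⟩
    exact ⟨i, hi, (inv_eq_of_mul_eq_one_left (fp_sq hi)).symm⟩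

theorem mem_FF {g : M24} : g ∈ FF ↔ ∃ i < 64, toM (fp i) = g := Iff.rfl

theorem FF_sq {g : M24} (h : g ∈ FF) : g * g = 1 := by
  obtain ⟨i, hi, rfl⟩ := h; exact fp_sq hi

theorem card_FF : Nat.card FF = 64 := by
  have : Nat.card FF = Nat.card (Fin 64) := by
    symm
    refine Nat.card_eq_of_bijective (fun i => ⟨toM (fp i), i, i.2, rfl⟩) ⟨fun i j h => ?_, ?_⟩
    · exact Fin.ext (fp_inj i.2 j.2 (congrArg Subtype.val h))
    · rintro ⟨_, i, hi, rfl⟩
      exact ⟨⟨i, hi⟩, rfl⟩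
  rw [this]; simp

theorem norm_of_chk {g T : ℕ} (hg : inM g = true)
    (h : ∀ i < 64, pmul g (fp i) = pmul (fp (fld 6 T i)) g) :
    toM g ∈ normalizer (FF : Set M24) := by
  refine mem_normalizer_fintype ?_
  rintro _ ⟨i, hi, rfl⟩
  refine ⟨fld 6 T i, fld_lt _ _ _, ?_⟩
  rw [eq_mul_inv_iff_mul_eq, ← toM_pmul hg (inM_fp hi), h i hi,
    toM_pmul (inM_fp (fld_lt 6 T i)) hg]

theorem GS_le_of (H : Subgroup M24) (h0 : toM gs0 ∈ H) (h1 : toM gs1 ∈ H) : GS ≤ H := by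
  rw [GS_eq]
  refine gen_le H fun g hg => ?_
  rw [gensS_eq] at hg
  simp only [List.mem_cons, List.not_mem_nil, or_false] at hg
  rcases hg with rfl | rfl
  exacts [h0, h1]

theorem GS_le_norm : GS ≤ normalizer (FF : Set M24) :=
  GS_le_of _ (norm_of_chk inM_gs0 fun _ hi => (F_spec hi).2.2.1)
    (norm_of_chk inM_gs1 fun _ hi => (F_spec hi).2.2.2.1)

theorem om_norm : toM om ∈ normalizer (FF : Set M24) :=
  norm_of_chk inM_om fun _ hi => (F_spec hi).2.2.2.2.1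

theorem conj_FF {g f : M24} (hg : g ∈ GS) (hf : f ∈ FF) : g * f * g⁻¹ ∈ FF :=
  (mem_normalizer_iff.mp (GS_le_norm hg) f).mp hf

theorem om_conj_FF {f : M24} (hf : f ∈ FF) : toM om * f * (toM om)⁻¹ ∈ FF :=
  (mem_normalizer_iff.mp om_norm f).mp hf

theorem om_conj_FF' {f : M24} (hf : f ∈ FF) : (toM om)⁻¹ * f * toM om ∈ FF := by
  have := (mem_normalizer_iff.mp (inv_mem om_norm) f).mp hf
  rwa [inv_inv] at this

theorem FF_om_cube {f : M24} (hf : f ∈ FF) : (f * toM om) ^ 3 = 1 := by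
  obtain ⟨i, hi, rfl⟩ := hf
  rw [← toM_pmul (inM_fp hi) inM_om, ← toM_ppow (inM_pmul (inM_fp hi) inM_om),
    (F_spec hi).2.2.2.2.2.1, toM_pid]

theorem om_cube : toM om ^ 3 = 1 := by simpa using FF_om_cube (one_mem FF)

theorem om_ne_one : toM om ≠ 1 := fun h =>
  chk_om.2.2.2.2.1 (toM_inj inM_om inM_pid (h.trans toM_pid.symm))

theorem FF_comm_om {f : M24} (hf : f ∈ FF) (h : toM om * f = f * toM om) : f = 1 := by
  obtain ⟨i, hi, rfl⟩ := hf
  rw [← toM_pmul inM_om (inM_fp hi), ← toM_pmul (inM_fp hi) inM_om] at h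
  rw [(F_spec hi).2.2.2.2.2.2.1 (toM_inj (inM_pmul inM_om (inM_fp hi))
    (inM_pmul (inM_fp hi) inM_om) h), fp_zero]

theorem sl_gen {H : Type*} [Group H] (F : Subgroup H) (w : H)
    (hw : ∀ f ∈ F, w⁻¹ * f * w ∈ F) (hw' : ∀ f ∈ F, w * f * w⁻¹ ∈ F) :
    ∃ K : Subgroup H, ∀ g, g ∈ K ↔ g ∈ normalizer (F : Set H) ∧
      (g * w * g⁻¹ * w⁻¹ ∈ F ∨ g * w * g⁻¹ * w ∈ F) := by
  refine ⟨{ carrier := {g | g ∈ normalizer (F : Set H) ∧
      (g * w * g⁻¹ * w⁻¹ ∈ F ∨ g * w * g⁻¹ * w ∈ F)}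
            one_mem' := ⟨one_mem _, Or.inl (by simp)⟩
            mul_mem' := ?_
            inv_mem' := ?_ }, fun _ => Iff.rfl⟩
  · rintro g h ⟨g1, g2⟩ ⟨h1, h2⟩
    refine ⟨mul_mem g1 h1, ?_⟩
    have c := fun x hx => (mem_normalizer_iff.mp g1 x).mp hx
    rcases h2 with h2 | h2
    · rcases g2 with g2 | g2
      · left
        have := F.mul_mem (c _ h2) g2
        convert this using 1; group
      · right
        have := F.mul_mem (c _ h2) g2
        convert this using 1; group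
    · rcases g2 with g2 | g2
      · right
        have := F.mul_mem (c _ h2) (hw _ (F.inv_mem g2))
        convert this using 1; group
      · left
        have := F.mul_mem (c _ h2) (hw' _ (F.inv_mem g2))
        convert this using 1; group
  · rintro g ⟨g1, g2⟩
    refine ⟨inv_mem g1, ?_⟩
    have c := fun x hx => (mem_normalizer_iff.mp (inv_mem g1) x).mp hx
    rcases g2 with g2 | g2
    · left
      have := c _ (F.inv_mem g2)
      convert this using 1; group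
    · right
      have := hw _ (c _ g2)
      convert this using 1; group

theorem GS_sl {g : M24} (hg : g ∈ GS) :
    g * toM om * g⁻¹ * (toM om)⁻¹ ∈ FF ∨ g * toM om * g⁻¹ * toM om ∈ FF := by
  obtain ⟨K, hK⟩ := sl_gen FF (toM om) (fun _ => om_conj_FF') (fun _ => om_conj_FF)
  refine ((hK g).mp (GS_le_of K ?_ ?_ hg)).2
  · refine (hK _).mpr ⟨GS_le_norm (gensS_mem _ (by rw [gensS_eq]; simp)), Or.inr ⟨18, by norm_num, ?_⟩⟩
    rw [← toM_pmul inM_gs0 inM_om, ← toM_pinv inM_gs0,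
      ← toM_pmul (inM_pmul inM_gs0 inM_om) (inM_pinv inM_gs0), chk_om.2.2.2.2.2.1,
      toM_pmul (inM_fp (by norm_num)) (inM_pinv inM_om), toM_pinv inM_om, inv_mul_cancel_right]
  · refine (hK _).mpr ⟨GS_le_norm (gensS_mem _ (by rw [gensS_eq]; simp)), Or.inl ⟨14, by norm_num, ?_⟩⟩
    rw [← toM_pmul inM_gs1 inM_om, ← toM_pinv inM_gs1,
      ← toM_pmul (inM_pmul inM_gs1 inM_om) (inM_pinv inM_gs1), chk_om.2.2.2.2.2.2,
      toM_pmul (inM_fp (by norm_num)) inM_om, mul_inv_cancel_right]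

theorem t0_mem : toSet 8388615 ∈ famDec 6 sext0 :=
  mem_famDec.mpr ⟨5, by norm_num, congrArg toSet (by decide +kernel)⟩

theorem t0_card : (toSet 8388615).card = 4 := sext0_mem.2.1 _ t0_mem

theorem mem_GS_of_word {g : M24} (h : (g • toSet 8388615) ∆ toSet 8388615 ∈ codeSets) : g ∈ GS := by
  have hc : (g • toSet 8388615).card = 4 := by rw [Finset.card_smul_finset, t0_card]
  have hm : g • toSet 8388615 ∈ famDec 6 sext0 := by
    have e := card_symmDiff_add (g • toSet 8388615) (toSet 8388615)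
    rw [hc, t0_card] at e
    rcases card_codeSets h with h0 | h8 | h0 | h0 | h0
    · rw [Finset.card_eq_zero, ← Finset.bot_eq_empty, symmDiff_eq_bot] at h0
      rw [h0]; exact t0_mem
    · have hd : Disjoint (g • toSet 8388615) (toSet 8388615) := by
        rw [Finset.disjoint_iff_inter_eq_empty, ← Finset.card_eq_zero]; omega
      have e2 : (g • toSet 8388615) ∆ toSet 8388615 = toSet 8388615 ∪ g • toSet 8388615 := by
        rw [hd.symmDiff_eq_sup, sup_comm]; rfl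
      obtain ⟨u, hu, hne, e3⟩ := sextet_octad sext0_mem t0_mem ((mem_octads_iff _).mpr ⟨h, h8⟩)
        (by rw [e2]; exact Finset.subset_union_left)
      have h2 := Finset.union_sdiff_cancel_left hd.symm
      have h3 := Finset.union_sdiff_cancel_left (sextet_disjoint sext0_mem t0_mem hu hne.symm)
      rw [← h2, ← e2, ← e3, h3]
      exact hu
    all_goals omega
  exact sextet_unique (msmul_mem_sextets g sext0_mem) sext0_mem
    (Finset.smul_mem_smul_finset t0_mem) hm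

theorem sq_spec {i : ℕ} (hi : i < 64) (h0 : i ≠ 0) : ∃ k0 k1 k2 bs : ℕ,
    inM k0 = true ∧ inM k1 = true ∧ inM k2 = true ∧ pmul k0 (fp i) = pmul (fp i) k0 ∧
    pmul k1 (fp i) = pmul (fp i) k1 ∧ pmul k2 (fp i) = pmul (fp i) k2 ∧ ca k1 64 = 64 ∧
    ca k2 64 = 64 ∧ bs < 2 ^ 128 ∧ ∀ s < 2048, bs.testBit (ca (fp i) s ^^^ s) = true ∧
      (ca (fp i) s = s → bs.testBit (ca k0 s ^^^ s) = true → s < 128 ∧
        ((ca k1 s ^^^ s = 0 ∨ ca k1 s ^^^ s = 64) → (ca k2 s ^^^ s = 0 ∨ ca k2 s ^^^ s = 64) →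
          s = 0 ∨ s = 64)) := by
  have h : sqChk i = true := by
    by_cases h32 : i < 32
    · have := of_allB chk_sq0 h32
      rwa [beq_false_iff.mpr h0, Bool.false_or] at this
    · have := of_allB chk_sq1 (show i - 32 < 32 by omega)
      rwa [show Nat.add (i - 32) 32 = i by show i - 32 + 32 = i; omega] at this
  simp only [sqChk, force_eq, Bool.and_eq_true, beq_iff, allB_iff] at h
  obtain ⟨⟨⟨⟨⟨⟨⟨a1, a2⟩, a3⟩, a4⟩, a5⟩, a6⟩, -⟩, ⟨a7, a8⟩, a9⟩ := h
  refine ⟨_, _, _, _, a1, a2, a3, a4, a5, a6, ca_eq _ _ ▸ a7, ca_eq _ _ ▸ a8, fld_lt 128 bsT i,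
    fun s hs => ?_⟩
  obtain ⟨b1, b2⟩ := a9 s hs
  simp only [ca_eq]
  rw [tb_eq] at b1
  refine ⟨b1, fun e1 e2 => ?_⟩
  rw [show Nat.beq (Nat.xor (mv (cm (fp i)) s) s) 0 = true from
    beq_iff.mpr (Nat.xor_eq_zero_iff.mpr e1), iteB_true, tb_eq,
    show (fld 128 bsT i).testBit (Nat.xor (mv (cm (fld 120 k0T i)) s) s) = true from e2, iteB_true,
    Bool.and_eq_true] at b2
  refine ⟨Nat.lt_succ_of_le (ble_iff.mp b2.1), fun e3 e4 => ?_⟩
  have b3 := b2.2
  have l : ∀ x : ℕ, x = 0 ∨ x = 64 → Nat.beq (Nat.land x 4031) 0 = true := by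
    rintro x (rfl | rfl) <;> rfl
  rw [l (Nat.xor _ _) e3, iteB_true, l (Nat.xor _ _) e4, iteB_true, Bool.or_eq_true, beq_iff,
    beq_iff] at b3
  exact b3

theorem F_V {i s : ℕ} (hi : i < 64) (hs : s < 2048) : ca (fp i) s ^^^ s < 128 := by
  by_cases h0 : i = 0
  · rw [h0, chk_om.2.2.2.1, H49.JU.ca_pid hs, Nat.xor_self]; norm_num
  · obtain ⟨_, _, _, bs, -, -, -, -, -, -, -, -, hb, h⟩ := sq_spec hi h0
    by_contra hc
    have := (h s hs).1
    rw [Nat.testBit_lt_two_pow (hb.trans_le (Nat.pow_le_pow_right (by norm_num) (by omega)))] at this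
    exact absurd this (by simp)

theorem F_W {i s : ℕ} (hi : i < 64) (hs : s < 128) :
    ca (fp i) s ^^^ s = 0 ∨ ca (fp i) s ^^^ s = 64 := by
  have h := of_allB chk_FW.1 hi
  simp only [force_eq, Bool.and_eq_true, allB_iff, Bool.or_eq_true, beq_iff] at h
  rw [ca_eq]
  exact h.1 s hs

theorem F_faith {i : ℕ} (hi : i < 64) (h : ∀ s < 128, ca (fp i) s = s) : i = 0 := by
  have h' := of_allB chk_FW.1 hi
  simp only [force_eq, Bool.and_eq_true, Bool.or_eq_true, beq_iff, anyB_iff, Bool.not_eq_true',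
    beq_false_iff] at h'
  refine h'.2.resolve_right ?_
  rintro ⟨s, hs, e⟩
  exact e (ca_eq _ _ ▸ h s hs)

theorem W_fix {s : ℕ} (hs : s < 128) (h : ∀ i < 64, ca (fp i) s = s) : s = 0 ∨ s = 64 := by
  have h' := of_allB chk_FW.2 hs
  simp only [Bool.or_eq_true, beq_iff, anyB_iff, Bool.not_eq_true', beq_false_iff] at h'
  refine h'.resolve_right ?_
  rintro ⟨i, hi, e⟩
  exact e (h i hi)

theorem om_V {s : ℕ} (hs : s < 2048) : ca om s ^^^ s < 128 := by
  have h := chk_omV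
  rw [force_eq] at h
  rw [ca_eq]
  exact Nat.lt_succ_of_le (ble_iff.mp (of_allB h hs))

theorem W_spec {s : ℕ} (hs : s < 128) : ca gs0 s < 128 ∧ ca gs1 s < 128 ∧ ca om s < 128 ∧
    ((ca om s ^^^ s = 0 ∨ ca om s ^^^ s = 64) → s = 0 ∨ s = 64) := by
  have h := of_allB chk_Wg.1 hs
  simp only [force_eq, Bool.and_eq_true, ble_iff] at h
  refine ⟨by omega, by omega, by omega, fun e => ?_⟩
  have h2 := h.2
  rw [show (Nat.beq (Nat.xor (ca om s) s) 0 || Nat.beq (Nat.xor (ca om s) s) 64) = true by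
    rw [Bool.or_eq_true, beq_iff, beq_iff]; exact e, iteB_true, Bool.or_eq_true, beq_iff, beq_iff] at h2
  exact h2

end Cfsg.Agent.H1.Qt
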