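import Mathlib
import Cfsg.Agent.H1.MdAbs
import Cfsg.Agent.H18.RfDefs

set_option autoImplicit false

namespace Cfsg.Agent.H1.Md

open Cfsg Cfsg.Agent.H42 Cfsg.Agent.H18.Rf
open scoped symmDiff Pointwise

universe u

theorem conj_transfer {G : Type u} [Group G] [Finite G] (V : Subgroup G) {M : Type} [Group M]
    (ρ : NN V →* M) (hcen : CC V = V) (hsur : Function.Surjective ρ)
    (hker : ∀ n, ρ n = 1 ↔ (n : G) ∈ V) :
    ∃ (A : Type u) (_ : AddCommGroup A) (_ : DistribMulAction M A) (ι : A → G),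
      Function.Injective ι ∧ (∀ x, ι x ∈ V) ∧ (∀ v ∈ V, ∃ x, ι x = v) ∧ Nat.card A = Nat.card V ∧
      (∀ x y : A, ι (x + y) = ι x * ι y) ∧ ι 0 = 1 ∧
      ∀ (n : NN V) (x : A), ι (ρ n • x) = n * ι x * (n : G)⁻¹ := by
  have hcomm : ∀ x ∈ V, ∀ y ∈ V, x * y = y * x := by
    intro x hx y hy
    have : y ∈ CC V := hcen.symm ▸ hy
    exact Subgroup.mem_centralizer_iff.mp this x hx
  let cg : CommGroup V :=
    { (inferInstance : Group V) with
      mul_comm := fun x y => Subtype.ext (hcomm _ x.2 _ y.2) }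
  have hmem : ∀ (n : NN V) (x : V), (n : G) * x * (n : G)⁻¹ ∈ V := fun n x =>
    (Subgroup.mem_normalizer_iff.mp n.2 _).mp x.2
  have hsame : ∀ (n n' : NN V), ρ n = ρ n' → ∀ x : V,
      (n : G) * x * (n : G)⁻¹ = (n' : G) * x * (n' : G)⁻¹ := by
    intro n n' h x
    have h1 : ((n'⁻¹ * n : NN V) : G) ∈ V := (hker _).mp (by rw [map_mul, map_inv, h, inv_mul_cancel])
    have h2 := hcomm _ h1 _ x.2
    have h3 : ((n'⁻¹ * n : NN V) : G) = (n' : G)⁻¹ * n := rfl
    rw [h3] at h2
    calc (n : G) * x * (n : G)⁻¹ = n' * ((n' : G)⁻¹ * n * x) * (n : G)⁻¹ := by group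
      _ = n' * (x * ((n' : G)⁻¹ * n)) * (n : G)⁻¹ := by rw [h2]
      _ = _ := by group
  let s : M → NN V := Function.surjInv hsur
  have hs : ∀ g, ρ (s g) = g := Function.surjInv_eq hsur
  let ag : AddCommGroup (Additive V) := @Additive.addCommGroup V cg
  let sm : M → Additive V → Additive V := fun g x => Additive.ofMul ⟨_, hmem (s g) x.toMul⟩
  have hsm : ∀ g x, (((sm g x).toMul : V) : G) = s g * (x.toMul : G) * (s g : G)⁻¹ := fun _ _ => rfl
  have hext : ∀ x y : Additive V, ((x.toMul : V) : G) = (y.toMul : V) → x = y := fun x y h =>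
    Additive.toMul.injective (Subtype.ext h)
  let da : DistribMulAction M (Additive V) :=
    { smul := sm
      one_smul := fun x => hext _ _ (by
        show (((sm 1 x).toMul : V) : G) = _
        rw [hsm, hsame (s 1) 1 (by rw [hs, map_one])]
        simp)
      mul_smul := fun g h x => hext _ _ (by
        show (((sm (g * h) x).toMul : V) : G) = (((sm g (sm h x)).toMul : V) : G)
        rw [hsm, hsm, hsm, hsame (s (g * h)) (s g * s h) (by rw [map_mul, hs, hs, hs])]
        simp [mul_assoc])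
      smul_zero := fun g => hext _ _ (by
        show (((sm g 0).toMul : V) : G) = _
        rw [hsm]
        simp)
      smul_add := fun g x y => hext _ _ (by
        show (((sm g (x + y)).toMul : V) : G) = (((sm g x).toMul : V) : G) * (((sm g y).toMul : V) : G)
        rw [hsm, hsm, hsm]
        show _ * (((x.toMul : V) : G) * ((y.toMul : V) : G)) * _ = _
        group) }
  refine ⟨Additive V, ag, da, fun x => ((x.toMul : V) : G), hext, fun x => x.toMul.2,
    fun v hv => ⟨Additive.ofMul ⟨v, hv⟩, rfl⟩, rfl, fun _ _ => rfl, rfl, fun n x => ?_⟩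
  show (((sm (ρ n) x).toMul : V) : G) = _
  rw [hsm, hsame _ n (hs _)]

theorem gShift_ne_one : toM gShift ≠ 1 := by
  rw [← toM_pid]
  intro h
  exact absurd (toM_inj inM_gShift inM_pid h) (by decide +kernel)

theorem modThm : ModStmt.{u} := by
  intro G _ _ V ρ st
  obtain ⟨A, ag, da, ι, hinj, hmem, hsur, hcard, hadd, hzero, hact⟩ :=
    conj_transfer V ρ st.cen st.sur st.ker
  have hc : Nat.card A = 2048 := hcard.trans st.card
  have : Finite A := Nat.finite_of_card_ne_zero (by rw [hc]; norm_num)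
  have h2 : ∀ v : A, v + v = 0 := fun v => hinj (by
    rw [hadd, hzero]; exact st.el _ (hmem v))
  have hne : ∃ v : A, toM gShift • v ≠ v := by
    by_contra hno
    push Not at hno
    obtain ⟨n, hn⟩ := st.sur (toM gShift)
    have hC : (n : G) ∈ CC V := by
      refine Subgroup.mem_centralizer_iff.mpr fun x hx => ?_
      obtain ⟨y, rfl⟩ := hsur x hx
      have e := hact n y
      rw [hn, hno] at e
      conv_lhs => rw [e]
      group
    rw [st.cen] at hC
    exact gShift_ne_one (hn ▸ (st.ker n).mpr hC)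
  have hz : ∀ x : A, ι x = 1 ↔ x = 0 := fun x =>
    ⟨fun h => hinj (h.trans hzero.symm), fun h => h ▸ hzero⟩
  obtain ⟨ψ, p1, ⟨p2, p3, p4⟩ | ⟨p2, p3, p4⟩⟩ := modAbs hc h2 hne
  · refine ⟨fun c => ι (ψ c), Or.inl ⟨fun c d _ _ => ?_, fun c _ => hmem _,
      fun v hv => ?_, fun c hc => ?_, fun n c hc => ?_⟩⟩
    · rw [p1, hadd]
    · obtain ⟨x, rfl⟩ := hsur v hv
      obtain ⟨c, hc, e⟩ := p2 x
      exact ⟨c, hc, by rw [e]⟩
    · rw [hz]; exact p3 c hc
    · rw [← hact, p4 _ c hc]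
  · refine ⟨fun c => ι (ψ c), Or.inr ⟨fun c d _ _ => ?_, fun c _ => hmem _,
      fun v hv => ?_, fun c hc => ?_, fun n c hc => ?_⟩⟩
    · rw [p1, hadd]
    · obtain ⟨x, rfl⟩ := hsur v hv
      obtain ⟨c, hc, e⟩ := p2 x
      exact ⟨c, hc, by rw [e]⟩
    · rw [hz]; exact p3 c hc
    · rw [← hact, p4 _ c hc]

end Cfsg.Agent.H1.Md
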