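import Mathlib
import Cfsg.Agent.H1.QtF
import Cfsg.Agent.H35.RfQ

set_option autoImplicit false
set_option maxRecDepth 100000

namespace Cfsg.Agent.H1.Qt

open Cfsg Subgroup Cfsg.Agent.H18.Rf Cfsg.Agent.H35.RF
open Cfsg.Agent.H42 hiding cj card_cj mem_cj
open Cfsg.Agent.H83 Cfsg.Agent.H83.J4
open Cfsg.Agent.H49.JU (ca cm ca_eq ca_lt ca_xor fld_cm)
open Cfsg.Agent.H23.RfWcT
open scoped symmDiff Pointwise commutatorElement

universe u

theorem gF_le : gen gF ≤ FF := by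
  have h : allL (fun g => anyB (fun i => Nat.beq (fp i) g) 64) gF = true := by decide +kernel
  refine gen_le _ fun g hg => ?_
  obtain ⟨i, hi, e⟩ := anyB_iff.mp (allL_iff.mp h g hg)
  exact ⟨i, hi, by rw [beq_iff.mp e]⟩

theorem par_chk : allB (fun s => force (rp s) fun n => allB (fun i => allB (fun j =>
    Nat.beq (Nat.mod (pc (Nat.land n (fld 24 sext0 i))) 2)
      (Nat.mod (pc (Nat.land n (fld 24 sext0 j))) 2)) 6) 6) 128 = true := by decide +kernel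

section
variable {G : Type u} [Group G] {V : Subgroup G} {ρ : NN V →* M24} {ψ : Finset GolayPt → G}

theorem chi_mem_WT {s : ℕ} (hs : s < 128) : ψ (toSet (rp s)) ∈ WT ψ := by
  refine subset_closure ⟨toSet (rp s), ?_, rfl⟩
  have hl := (lab_aux (show s < 2048 by omega)).2.2.1
  have h := of_allB par_chk hs
  rw [force_eq] at h
  refine forall_famDec.mpr fun i hi => forall_famDec.mpr fun j hj => ?_
  rw [card_toSet_inter _ hl, card_toSet_inter _ hl]
  exact beq_iff.mp (of_allB (of_allB h hi) hj)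

variable (S : St V ρ) (T : Tod V ρ ψ)
include S T

theorem exists_chi {v : G} (hv : v ∈ V) : ∃ j < 2048, ψ (toSet (rp j)) = v := by
  obtain ⟨c, hc, rfl⟩ := T.sur v hv
  refine ⟨cw (mask c), cw_lt (mask_lt c), ?_⟩
  rw [← psi_cw S T (mask_lt c) (by rwa [toSet_mask]), toSet_mask]

theorem chi_zero : ψ (toSet (rp 0)) = 1 := by
  have := chi_mul S T (i := 0) (j := 0) (by norm_num) (by norm_num)
  rwa [Nat.xor_self, left_eq_mul] at this

theorem chi_z : ψ (toSet (rp 64)) = ψ t0 := by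
  have := psi_cw S T (a := 8388615) (by norm_num) (by rw [t0_card]; decide)
  rw [chk_Wg.2.2.2.2] at this
  exact this.symm

theorem V_comm {x y : G} (hx : x ∈ V) (hy : y ∈ V) : x * y = y * x := by
  have : y ∈ CC V := S.cen.symm ▸ hy
  exact mem_centralizer_iff.mp this x hx

theorem conj_sq {r c : NN V} {k p s : ℕ} (hk : inM k = true) (hp : inM p = true)
    (er : ρ r = toM p) (ec : ρ c = toM k) (hc : pmul k p = pmul p k) (hs : s < 2048)
    (e : ψ (toSet (rp s)) = (r : G) * r) :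
    ∃ v ∈ V, (c : G) * r * (c : G)⁻¹ = v * r ∧
      ψ (toSet (rp (ca k s ^^^ s))) = r * v * (r : G)⁻¹ * v := by
  have h1 : ((c * r * c⁻¹ * r⁻¹ : NN V) : G) ∈ V := by
    refine (S.ker _).mp ?_
    rw [map_mul, map_mul, map_mul, map_inv, map_inv, er, ec, ← toM_pmul hk hp, hc, toM_pmul hp hk]
    group
  refine ⟨_, h1, by push_cast; group, ?_⟩
  set v : G := ((c * r * c⁻¹ * r⁻¹ : NN V) : G) with hv
  have h2 : (c : G) * r * (c : G)⁻¹ = v * r := by rw [hv]; push_cast; group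
  have hrv : (r : G) * v * (r : G)⁻¹ ∈ V := (mem_normalizer_iff.mp r.2 _).mp h1
  have hrr : (r : G) * r ∈ V := e ▸ T.mem _ (ev_rp hs)
  rw [chi_mul S T (ca_lt k hs) hs, ← conj_ca S T hk ec hs, e]
  calc (c : G) * (r * r) * (c : G)⁻¹ * (r * r)
      = (c * r * (c : G)⁻¹) * (c * r * (c : G)⁻¹) * (r * r) := by group
    _ = v * (r * v * (r : G)⁻¹) * ((r * r) * (r * r)) := by rw [h2]; group
    _ = _ := by rw [S.el _ hrr, mul_one, V_comm S T h1 hrv]

theorem sq_key {r : NN V} {i : ℕ} (hi : i < 64) (h0 : i ≠ 0) (er : ρ r = toM (fp i)) :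
    ∃ s < 128, ψ (toSet (rp s)) = (r : G) * r ∧ ∃ k1 k2 : ℕ, inM k1 = true ∧ inM k2 = true ∧
      pmul k1 (fp i) = pmul (fp i) k1 ∧ pmul k2 (fp i) = pmul (fp i) k2 ∧ ca k1 64 = 64 ∧
      ca k2 64 = 64 ∧ ((ca k1 s ^^^ s = 0 ∨ ca k1 s ^^^ s = 64) →
        (ca k2 s ^^^ s = 0 ∨ ca k2 s ^^^ s = 64) → s = 0 ∨ s = 64) := by
  obtain ⟨k0, k1, k2, bs, a0, a1, a2, c0, c1, c2, f1, f2, -, h⟩ := sq_spec hi h0
  have hrr : ((r * r : NN V) : G) ∈ V := (S.ker _).mp (by rw [map_mul, er, fp_sq hi])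
  obtain ⟨s, hs, e⟩ := exists_chi S T hrr
  have e' : ψ (toSet (rp s)) = (r : G) * r := e
  have hfix : ca (fp i) s = s := by
    refine chi_inj S T (ca_lt _ hs) hs ?_
    rw [← conj_ca S T (inM_fp hi) er hs, e']
    group
  obtain ⟨c, hc⟩ := S.sur (toM k0)
  obtain ⟨v, hv, -, e2⟩ := conj_sq S T a0 (inM_fp hi) er hc c0 hs e'
  obtain ⟨a, ha, rfl⟩ := exists_chi S T hv
  rw [conj_ca S T (inM_fp hi) er ha, ← chi_mul S T (ca_lt _ ha) ha] at e2
  have e3 := chi_inj S T (xor_lt11 (ca_lt _ hs) hs) (xor_lt11 (ca_lt _ ha) ha) e2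
  obtain ⟨l1, l2⟩ := (h s hs).2 hfix (e3 ▸ (h a ha).1)
  exact ⟨s, l1, e', k1, k2, a1, a2, c1, c2, f1, f2, l2⟩

end

theorem qc1 : Qc1Stmt.{u} := by
  intro G _ _ V ρ ψ ω tz r hr
  obtain ⟨hn, hr⟩ := mem_pre.mp hr
  obtain ⟨i, hi, e⟩ := gF_le hr
  by_cases h0 : i = 0
  · rw [h0, fp_zero] at e
    rw [tz.st.el r ((tz.st.ker _).mp e.symm)]
    exact one_mem _
  · obtain ⟨s, hs, e2, -⟩ := sq_key tz.st tz.tod hi h0 e.symm
    exact (show ψ (toSet (rp s)) = r * r from e2) ▸ chi_mem_WT hs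

theorem qc3 (hVa : VaTStmt.{u}) : Qc3Stmt.{u} := by
  intro G _ _ V ρ ψ ω tz Q ql q hq
  have va := hVa G V ρ ψ ω tz
  have S := tz.st
  have T := tz.tod
  have hqR : q ∈ RT V ρ := ql.sup ▸ mem_sup_left hq
  obtain ⟨hn, hr⟩ := mem_pre.mp hqR
  obtain ⟨i, hi, e⟩ := gF_le hr
  by_cases h0 : i = 0
  · rw [h0, fp_zero] at e
    rw [S.el q ((S.ker _).mp e.symm)]
    exact one_mem _
  obtain ⟨s, hs, e2, k1, k2, a1, a2, c1, c2, f1, f2, h⟩ := sq_key S T hi h0 e.symm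
  have hs' : s < 2048 := by omega
  have hzz : ψ t0 * ψ t0 = 1 := S.el _ (va.WV va.zW)
  have key : ∀ k, inM k = true → pmul k (fp i) = pmul (fp i) k → ca k 64 = 64 →
      ca k s ^^^ s = 0 ∨ ca k s ^^^ s = 64 := by
    intro k hk hc hf
    obtain ⟨c, ec⟩ := S.sur (toM k)
    have hcM : (c : G) ∈ MM V (ψ t0) := by
      refine ⟨c.2, mem_centralizer_singleton_iff.mpr ?_⟩
      have := conj_ca S T hk ec (j := 64) (by norm_num)
      rw [hf, chi_z S T] at this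
      rw [← mul_inv_eq_iff_eq_mul, this]
    obtain ⟨v, hv, e3, e4⟩ := conj_sq S T hk (inM_fp hi) e.symm ec hc hs' e2
    have hvQ : v ∈ Q := by
      have h1 : (c : G) * q * (c : G)⁻¹ ∈ Q := (mem_normalizer_iff.mp (ql.nQ hcM) q).mp hq
      have h2 : (c : G) * q * (c : G)⁻¹ = v * q := e3
      rw [h2] at h1
      simpa using Q.mul_mem h1 (Q.inv_mem hq)
    have hvW : v ∈ WT ψ := ql.inf ▸ (⟨hvQ, hv⟩ : v ∈ Q ⊓ V)
    have h5 := va.RW q hqR v hvW
    rw [commutatorElement_def, inv_eq_of_mul_eq_one_left (S.el v hv), H49.mem_zpowers_invol hzz] at h5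
    have e5 : ψ (toSet (rp (ca k s ^^^ s))) = q * v * q⁻¹ * v := e4
    have hl := xor_lt11 (ca_lt k hs') hs'
    rcases h5 with h5 | h5
    · left
      exact chi_inj S T hl (by norm_num) (by rw [e5, h5, chi_zero S T])
    · right
      exact chi_inj S T hl (by norm_num) (by rw [e5, h5, chi_z S T])
  have e6 : ψ (toSet (rp s)) = q * q := e2
  rcases h (key k1 a1 c1 f1) (key k2 a2 c2 f2) with rfl | rfl
  · rw [← e6, chi_zero S T]; exact one_mem _
  · rw [← e6, chi_z S T]; exact mem_zpowers _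

end Cfsg.Agent.H1.Qt
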