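import Cfsg.Agent.H25.UGDefs

/-! Translations preserve the joint level sets of the functions on the torus. -/

set_option autoImplicit false

namespace Cfsg.Agent.H1.UgLev0

open Cfsg Module Cfsg.Agent.H31 Cfsg.Agent.H77.Sg Cfsg.Agent.H25.UG

universe u

theorem lev0 : Lev0Stmt.{u} := by
  intro E K _ _ _ _ _ σ B q R t G ψ I h cu fn s hs s' hs' r hr r' hr' ns ns' nr nr' c e e' hl ν hν
  obtain ⟨f, hf, hh⟩ := fn.ex ν hν
  have key : ∀ x : K, Th q ψ f (x + algebraMap E K c) =
      Th q ψ (fun u => f u * ψ (c * B u u)) x := fun x => by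
    unfold Th
    refine finsum_congr fun u => ?_
    beta_reduce
    rw [mul_add, map_add, AddChar.map_add_eq_mul, cu.form, mul_comm _ (algebraMap E K c),
      ← Algebra.smul_def, map_smul, smul_eq_mul, pow_succ]
    ring
  have hi : Inv G fun u => f u * ψ (c * B u u) := fun g hg u => by
    beta_reduce
    rw [hf g hg u, cu.le hg u u]
  obtain ⟨c₀, d, hd⟩ := fn.sp _ hi
  rw [hh r hr fun e => nr (e ▸ one_mem _), hh r' hr' fun e => nr' (e ▸ one_mem _), e, e', key, key,
    hd s hs ns, hd s' hs' ns']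
  exact congrArg _ (Finset.sum_congr rfl fun μ hμ => by rw [hl μ hμ])

end Cfsg.Agent.H1.UgLev0
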