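import Cfsg.Agent.H25.UGDefs

/-! A class of the torus which is invariant under all translations by skew elements. -/

set_option autoImplicit false

namespace Cfsg.Agent.H1.UgLev1

open Cfsg Module Cfsg.Agent.H31 Cfsg.Agent.H77.Sg Cfsg.Agent.H25.UG

universe u

theorem mem_Rt {K : Type u} [Field K] {m : ℕ} {s : Kˣ} : s ∈ Rt K m ↔ s ^ m = 1 := Iff.rfl

section

variable {E K : Type u} [Field E] [Fintype E] [Field K] [Algebra E K] [Finite K]
  {σ : E →+* E} {B : K →ₛₗ[σ] K →ₗ[E] E} {q R t : ℕ} {G : Subgroup (K ≃ₗ[E] K)}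
  {ψ : AddChar E ℂ} {I : Finset (Ch K q)} {h : Ch K q → Kˣ → ℂ}

/-- the characters in `I` separate the scalars -/
theorem sep (kt : Kt B q R t) (one : 1 ∉ I) (hI : q ≤ I.card + 1) {z z' : Rt K (q + 1)}
    (e : ∀ ν ∈ I, ν z = ν z') : z = z' := by
  classical
  by_contra ne
  let H : Subgroup (Ch K q) :=
    { carrier := {ν | ν z = ν z'}
      one_mem' := rfl
      mul_mem' := fun {a b} ha hb => by
        change a z * b z = a z' * b z'
        rw [show a z = a z' from ha, show b z = b z' from hb]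
      inv_mem' := fun {a} ha => by
        change (a z)⁻¹ = (a z')⁻¹
        rw [show a z = a z' from ha] }
  have hc := kt.cardCh
  have : Finite (Ch K q) := Nat.finite_of_card_ne_zero (by omega)
  have : NeZero ((Monoid.exponent (Rt K (q + 1)) : ℕ) : ℂ) :=
    ⟨Nat.cast_ne_zero.2 Monoid.exponent_ne_zero_of_finite⟩
  obtain ⟨φ, hφ⟩ := CommGroup.exists_apply_ne_one_of_hasEnoughRootsOfUnity (Rt K (q + 1)) ℂ
    (a := z⁻¹ * z') (fun e => ne (inv_mul_eq_one.1 e))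
  have h1 : H.index ≠ 1 := fun e => hφ (by
    have : φ ∈ H := Subgroup.index_eq_one.1 e ▸ Subgroup.mem_top φ
    rw [map_mul, map_inv, show φ z = φ z' from this, inv_mul_cancel])
  have h2 := H.card_mul_index
  have h3 : (insert 1 I).card ≤ Nat.card H := by
    rw [← Set.ncard_coe_finset]
    refine Set.ncard_le_ncard (t := (H : Set (Ch K q))) (fun ν hν => ?_) (Set.toFinite _)
    rcases Finset.mem_insert.1 hν with rfl | hν
    · exact H.one_mem
    · exact e ν hν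
  rw [Finset.card_insert_of_notMem one] at h3
  have h4 : H.index ≠ 0 := Subgroup.index_ne_zero_of_finite
  have h5 := kt.q2
  have h6 : Nat.card H * 2 ≤ Nat.card H * H.index := Nat.mul_le_mul_left _ (by omega)
  omega

omit [Finite K] in
/-- the values on `Z P` -/
theorem val (fn : Fn B q t G ψ I h) {ν : Ch K q} (hν : ν ∈ I) (kt : Kt B q R t)
    (z : Rt K (q + 1)) {p : Kˣ} (hp : p ∈ Rt K t) : h ν (z * p) = ν z := by
  rw [fn.hz ν hν z p (kt.PT hp), ← mul_one p, fn.hp ν hν p hp 1 (one_mem _), fn.h1 ν hν, mul_one]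

omit [Finite K] in
theorem notZ (kt : Kt B q R t) (z : Rt K (q + 1)) {p : Kˣ} (hp : p ∈ Rt K t) (p1 : p ≠ 1) :
    (z : Kˣ) * p ∉ Rt K (q + 1) := fun e =>
  p1 (kt.ZP p ((mul_mem_cancel_left z.2).1 e) hp)

omit [Finite K] in
theorem inT (kt : Kt B q R t) (z : Rt K (q + 1)) {p : Kˣ} (hp : p ∈ Rt K t) :
    (z : Kˣ) * p ∈ Rt K (q ^ 7 + 1) := mul_mem (kt.ZT z.2) (kt.PT hp)

omit [Finite K] in
theorem uniq (kt : Kt B q R t) {z z' : Rt K (q + 1)} {p p' : Kˣ} (hp : p ∈ Rt K t)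
    (hp' : p' ∈ Rt K t) (e : (z : Kˣ) * p = z' * p') : z = z' := by
  have h1 : (z' : Kˣ)⁻¹ * z = p' * p⁻¹ := by
    rw [inv_mul_eq_iff_eq_mul, ← mul_assoc, ← e, mul_inv_cancel_right]
  have := kt.ZP _ (mul_mem (inv_mem z'.2) z.2) (h1 ▸ mul_mem hp' (inv_mem hp))
  exact Subtype.ext (inv_mul_eq_one.1 this).symm

omit [Finite K] in
theorem dec (kt : Kt B q 1 t) {s : Kˣ} (hs : s ∈ Rt K (q ^ 7 + 1)) :
    ∃ z : Rt K (q + 1), ∃ p ∈ Rt K t, s = z * p := by
  obtain ⟨a, b, hab⟩ := Nat.isCoprime_iff_coprime.2 kt.cop1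
  have h0 : s ^ (((q + 1 : ℕ) : ℤ) * t) = 1 := by
    rw [← Nat.cast_mul, zpow_natCast, ← one_mul (q + 1), ← kt.card]; exact hs
  refine ⟨⟨s ^ (a * t), ?_⟩, s ^ (b * (q + 1 : ℕ)), ?_, by rw [← zpow_add, hab, zpow_one]⟩
  · rw [mem_Rt, ← zpow_natCast, ← zpow_mul, mul_assoc, mul_comm a, mul_comm (t : ℤ), zpow_mul, h0,
      one_zpow]
  · rw [mem_Rt, ← zpow_natCast, ← zpow_mul, mul_assoc, mul_comm b, zpow_mul, h0, one_zpow]

end

/-- the translation by `c` maps the class of `z` into the class of `z'` -/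
def Rel {E K : Type u} [Field E] [Field K] [Algebra E K] (t : ℕ) (c : E) (z z' : Kˣ) : Prop :=
  ∀ p ∈ Rt K t, p ≠ 1 → ∃ p' ∈ Rt K t, p' ≠ 1 ∧ kap (z' * p') = kap (z * p) + algebraMap E K c

theorem lev1 (l0 : Lev0Stmt.{u}) : Lev1Stmt.{u} := by
  intro E K _ _ _ _ _ σ B q t G ψ I h cu fn hI
  have kt := cu.toKt
  obtain ⟨p₀, hp₀, p1⟩ : ∃ p ∈ Rt K t, p ≠ 1 := by
    have h1 := kt.cardP
    have h2 := kt.t43
    have : Nontrivial (Rt K t) := Finite.one_lt_card_iff_nontrivial.1 (by omega)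
    obtain ⟨p, hp⟩ := exists_ne (1 : Rt K t)
    exact ⟨p, p.2, fun e => hp (Subtype.ext e)⟩
  have tr : ∀ c : E, c + σ c = 0 → ∀ z : Rt K (q + 1), ∀ p ∈ Rt K t, p ≠ 1 →
      ∃ z' : Rt K (q + 1), ∃ p' ∈ Rt K t, p' ≠ 1 ∧
        kap ((z' : Kˣ) * p') = kap ((z : Kˣ) * p) + algebraMap E K c := by
    intro c hc z p hp p1
    obtain ⟨s, hs, ns, e⟩ := kt.trn _ (inT kt z hp) (notZ kt z hp p1) c hc
    obtain ⟨z', p', hp', rfl⟩ := dec kt hs
    exact ⟨z', p', hp', fun e => ns (by rw [e, mul_one]; exact z'.2), e⟩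
  have ex : ∀ c : E, c + σ c = 0 → ∀ z : Rt K (q + 1), ∃ z' : Rt K (q + 1),
      Rel t c (z : Kˣ) z' := by
    intro c hc z
    obtain ⟨z', p', hp', n', e'⟩ := tr c hc z p₀ hp₀ p1
    refine ⟨z', fun p hp n => ?_⟩
    obtain ⟨z'', p'', hp'', n'', e''⟩ := tr c hc z p hp n
    have := l0 E K σ B q 1 t G ψ I h cu fn _ (inT kt z hp₀) _ (inT kt z hp) _ (inT kt z' hp') _
      (inT kt z'' hp'') (notZ kt z hp₀ p1) (notZ kt z hp n) (notZ kt z' hp' n')
      (notZ kt z'' hp'' n'') c e' e'' fun ν hν => by rw [val fn hν kt z hp₀, val fn hν kt z hp]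
    obtain rfl : z' = z'' := sep kt fn.one hI fun ν hν => Units.ext (by
      rw [← val fn hν kt z' hp', ← val fn hν kt z'' hp'', this ν hν])
    exact ⟨p'', hp'', n'', e''⟩
  have un : ∀ (c : E) (z z' z'' : Rt K (q + 1)), Rel t c (z : Kˣ) z' → Rel t c (z : Kˣ) z'' →
      z' = z'' := by
    intro c z z' z'' r' r''
    obtain ⟨p', hp', n', e'⟩ := r' p₀ hp₀ p1
    obtain ⟨p'', hp'', n'', e''⟩ := r'' p₀ hp₀ p1
    exact uniq kt hp' hp'' (kt.kapI _ _ (fun e => notZ kt z' hp' n' (e ▸ one_mem _))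
      (fun e => notZ kt z'' hp'' n'' (e ▸ one_mem _)) (e'.trans e''.symm))
  let S : AddSubgroup E := (AddMonoidHom.id E + σ.toAddMonoidHom).ker
  have hS : ∀ c : S, (c : E) + σ c = 0 := fun c => c.2
  choose F hF using ex
  let _ : MulAction (Multiplicative S) (Rt K (q + 1)) :=
    { smul := fun c z => F _ (hS c.toAdd) z
      one_smul := fun z => un _ z _ _ (hF _ _ z) fun p hp n => ⟨p, hp, n, by simp⟩
      mul_smul := fun a b z => un _ z _ _ (hF _ _ z) fun p hp n => by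
        obtain ⟨p', hp', n', e'⟩ := hF _ (hS b.toAdd) z p hp n
        obtain ⟨p'', hp'', n'', e''⟩ := hF _ (hS a.toAdd) _ p' hp' n'
        refine ⟨p'', hp'', n'', e''.trans ((congrArg (· + _) e').trans ?_)⟩
        rw [toAdd_mul, AddSubgroup.coe_add, map_add]
        ring }
  obtain ⟨p, f, hp, -, -, hf, hq⟩ := kt.pp
  have : Fact p.Prime := ⟨hp⟩
  have hP : IsPGroup p (Multiplicative S) := IsPGroup.of_card (n := f) (by
    rw [← hq, ← kt.cardS]; rfl)
  obtain ⟨z, hz⟩ := hP.nonempty_fixed_point_of_prime_not_dvd_card (Rt K (q + 1)) (by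
    rw [kt.cardZ, hq]
    intro d
    exact hp.one_lt.ne' (Nat.dvd_one.1 ((Nat.dvd_add_right (dvd_pow_self p hf.ne')).1 d)))
  refine ⟨z, z.2, fun c hc => ?_⟩
  have e : F c hc z = z := hz (Multiplicative.ofAdd ⟨c, hc⟩)
  have := hF c hc z
  rw [e] at this
  exact this

end Cfsg.Agent.H1.UgLev1
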